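import Cfsg.Agent.Al.B
import Cfsg.Agent.E72.A
import Cfsg.Agent.Perm.SymAut

/-! Alternating subgroups of `E₇(q)`, `q` even, with quadratic 3-cycles: definitions. -/

set_option autoImplicit false

namespace CF.Ao.Gp

open Module Function Equiv Equiv.Perm

section
variable {K V : Type*} [Field K] [AddCommGroup V] [Module K V] {G : Type*} [Group G]

/-- Eigenspaces. -/
abbrev Es (x : End K V) (a : K) : Submodule K V := x.eigenspace a

/-- The projection on the fixed space. -/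
abbrev p1 (x : End K V) : End K V := 1 + x + x ^ 2

/-- The projection on the commutator space. -/
abbrev p2 (x : End K V) : End K V := x + x ^ 2

/-- `f` centralizes the `sl₂` of `x`. -/
def Cs (L : Submodule K (End K V)) (x f : End K V) : Prop :=
  ∀ Y ∈ L, Y * p1 x = 0 → Commute f Y

/-- The involutions of the `SL₂` of `x` that invert `x`. -/
structure Si (L : Submodule K (End K V)) (x S : End K V) : Prop where
  mem : S + 1 ∈ L
  kl : (S + 1) * p1 x = 0
  inv : S * x = x ^ 2 * S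
  sq : S * S = 1

variable (R : G →* End K V) (L : Submodule K (End K V)) (b : V →ₗ[K] V →ₗ[K] K) (ω : K)

/-- The group, the Lie algebra and the form. -/
structure Amb : Prop where
  two : (2 : K) = 0
  om : ω ^ 2 + ω + 1 = 0
  inj : Injective R
  cj : ∀ g, ∀ Y ∈ L, R g * Y * R g⁻¹ ∈ L
  inv : ∀ g v w, b (R g v) (R g w) = b v w
  skew : ∀ Y ∈ L, ∀ v w, b (Y v) w = b v (Y w)
  sym : ∀ v w, b v w = b w v
  nd : ∀ v, (∀ w, b v w = 0) → v = 0

/-- An element of order three in a fundamental `SL₂`, with its two root vectors. -/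
structure Tri (x : G) (P M : End K V) : Prop where
  x3 : x ^ 3 = 1
  dW : finrank K (Es (R x) ω) = 12
  n1 : p1 (R x) ≠ 0
  pL : P ∈ L
  mL : M ∈ L
  hL : p2 (R x) ∈ L
  pp : P * P = 0
  mm : M * M = 0
  pmp : P * M * P = P
  mpm : M * P * M = M
  pm : P * M + M * P = p2 (R x)
  ex : R x = 1 + p2 (R x) + ω • (P * M) + ω ^ 2 • (M * P)
  pg : ∀ t : K, ∃ g, R g = 1 + t • P
  mg : ∀ t : K, ∃ g, R g = 1 + t • M
  sl : ∀ Y ∈ L, Y * p1 (R x) = 0 → ∃ a c d : K, Y = a • P + c • M + d • p2 (R x)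
  fl : ∀ Y ∈ L, Commute Y (R x) → (∀ w ∈ Es (R x) ω, Y w = 0) → ∃ a : K, Y = a • p1 (R x)
  sc : ∀ f, Commute f (R x) → (∀ Y ∈ L, Y * Y = 0 → Commute Y (R x) → Commute f Y) →
    ∃ a : K, f * p1 (R x) = a • p1 (R x)
  alt : ∀ Y ∈ L, Commute Y (R x) → Commute Y M → ∀ w ∈ Es (R x) ω, b (Y w) (M w) = 0

/-- A pair of such elements for orthogonal roots. -/
structure Pr (x c : G) : Prop where
  d2 : finrank K ↥(Es (R x) ω ⊓ Es (R c) ω) = 2
  d4 : ∃ D : Submodule K (End K V), D ≤ L ∧ 27 ≤ finrank K D ∧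
    ∀ Y ∈ D, Cs L (R x) Y ∧ Cs L (R c) Y ∧ Y * (p2 (R x) * p2 (R c)) = 0
  z : ∀ d : End K V, (∀ v ∈ Es (R x) ω ⊓ Es (R c) ω, d v ∈ Es (R x) ω ⊓ Es (R c) ω ∧ d (d v) = v) →
    ∃ z : G, Cs L (R x) (R z) ∧ Cs L (R c) (R z) ∧ (∀ v ∈ Es (R x) ω ⊓ Es (R c) ω, R z v = d v) ∧
      (∀ v ∈ Es (R x) ω, R c v = v → R z v = v) ∧ ∀ v ∈ Es (R c) ω, R x v = v → R z v = v

/-- The finite group. -/
structure Fro {X : Type*} [Group X] (ι : X →* G) (φ : V →+ V) : Prop where
  inj : Injective ι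
  bij : Bijective φ
  cm : ∀ a v, φ (R (ι a) v) = R (ι a) (φ v)
  li : ∀ Y ∈ L, ∃ Y' ∈ L, ∀ v, φ (Y v) = Y' (φ v)
  fx : ∀ g, (∀ v, φ (R g v) = R g (φ v)) → g ∈ ι.range
  irr : ∀ U : Submodule K V, (∀ a, ∀ v ∈ U, R (ι a) v ∈ U) → U = ⊥ ∨ U = ⊤

variable {Ω : Type*} [Fintype Ω] [DecidableEq Ω]

/-- An even permutation as an element of the alternating group. -/
def ev (g : Perm Ω) : alternatingGroup Ω := if h : sign g = 1 then ⟨g, h⟩ else 1

theorem ev_val {g : Perm Ω} (h : sign g = 1) : (ev g).1 = g := by rw [ev, dif_pos h]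

theorem ev_coe (g : alternatingGroup Ω) : ev g.1 = g := dif_pos g.2

theorem ev_mul {g h : Perm Ω} (a : sign g = 1) (c : sign h = 1) : ev (g * h) = ev g * ev h :=
  Subtype.ext (by rw [Subgroup.coe_mul, ev_val a, ev_val c, ev_val (by simp [a, c])])

/-- A product of two transpositions. -/
def s2 (a c d e : Ω) : alternatingGroup Ω := ev (swap a c * swap d e)

theorem s2_val {a c d e : Ω} (h : a ≠ c) (k : d ≠ e) : (s2 a c d e).1 = swap a c * swap d e :=
  ev_val (by simp [h, k])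

variable (j : alternatingGroup Ω →* G)

/-- All 3-cycles are quadratic. -/
structure Al3 : Prop extends Amb R L b ω where
  h8 : 8 ≤ Fintype.card Ω
  tri : ∀ x : alternatingGroup Ω, x.1.IsThreeCycle → ∃ P M, Tri R L b ω (j x) P M
  pr : ∀ x c : alternatingGroup Ω, x.1.IsThreeCycle → c.1.IsThreeCycle → x.1.Disjoint c.1 →
    Pr R L ω (j x) (j c)

/-- The root involutions `s a c d`, inverting the 3-cycle `s2 a c a d` like `(a c)`. -/
structure Sys (s : Ω → Ω → Ω → G) : Prop where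
  si : ∀ a c d, [a, c, d].Nodup → Si L (R (j (s2 a c a d))) (R (s a c d))
  cm : ∀ a c d, [a, c, d].Nodup → ∀ g : alternatingGroup Ω, g.1 a = a → g.1 c = c → g.1 d = d →
    Commute (s a c d) (j g)
  c2 : ∀ a c d u v, [a, c, d, u, v].Nodup → Commute (s a c d) (j (s2 a c u v))
  uq : ∀ a c d u v, [a, c, d, u, v].Nodup → ∀ t, Si L (R (j (s2 a c a d))) (R t) →
    Commute t (j (s2 a c u v)) → t = s a c d

/-- The commutator space of the centralizer of `x` on the eigenspace of `x`. -/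
def Sx (x : alternatingGroup Ω) : Submodule K V := Submodule.span K
  {u | ∃ g : alternatingGroup Ω, x.1.Disjoint g.1 ∧ ∃ w ∈ Es (R (j x)) ω, u = R (j g) w - w}

/-- The endomorphism `ϑ`. -/
def th (s : Ω → Ω → Ω → G) (a c d e f k u v : Ω) : End K V :=
  R (j (s2 a c u v) * s a c d) * p2 (R (j (s2 e f e k))) +
    R (j (s2 a c e f) * s a c d) * p1 (R (j (s2 e f e k)))

/-- The second case. -/
def P2 (s : Ω → Ω → Ω → G) (a c d : Ω) : Prop :=
  ∀ e f k u v, [a, c, d, e, f, k, u, v].Nodup → ∀ g : alternatingGroup Ω, g.1 a = a → g.1 c = c →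
    g.1 d = d → ∀ w ∈ Es (R (j (s2 a c a d))) ω,
      th R j s a c d e f k u v (R (j g) w) = R (j g) (th R j s a c d e f k u v w)

/-- The common centralizer consists of scalars. -/
def Scal : Prop := ∀ f : End K V, (∀ g, Commute f (R (j g))) →
  (∀ x : alternatingGroup Ω, x.1.IsThreeCycle → Cs L (R (j x)) f) → ∃ a : K, f = a • (1 : End K V)

/-- A module of dimension twelve for a symmetric group. -/
structure W12 (ρ : Perm Ω →* End K V) (B : V →ₗ[K] V →ₗ[K] K) : Prop where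
  two : (2 : K) = 0
  h5 : 5 ≤ Fintype.card Ω
  dim : finrank K V = 12
  d3 : ∀ c : Perm Ω, c.IsThreeCycle → CF.E83.dm ρ c = 8
  inv : ∀ g v w, B (ρ g v) (ρ g w) = B v w
  sym : ∀ v w, B v w = B w v
  nd : ∀ v, (∀ w, B v w = 0) → v = 0

/-- The Temperley-Lieb relation. -/
def TLr (ρ : Perm Ω →* End K V) : Prop :=
  ∀ a c d, [a, c, d].Nodup → (ρ (swap a c) + 1) * p1 (ρ (swap a c * swap a d)) = 0

/-- The element `N₁ + N₃ + [N₁, [N₂, N₃]]`. -/
def Mw (n1 n2 n3 : End K V) : End K V :=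
  n1 + n3 + (n1 * (n2 * n3 + n3 * n2) + (n2 * n3 + n3 * n2) * n1)

end

section
open CF.Chev CF.E72 Cfsg.Lie Matrix

variable (K : Type*) [Field K]

/-- The root vectors on the module of dimension `56`. -/
noncomputable def eV (r : Fin 126) : End K (Fin 56 → K) :=
  toLin' (mP wt K (fun _ => True) (rt CF.ExA.cE7 r))

/-- The coroots. -/
noncomputable def hV (i : Fin 7) : End K (Fin 56 → K) := toLin' (diagonal fun a => (wt a i : K))

/-- The Lie algebra. -/
noncomputable def LV : Submodule K (End K (Fin 56 → K)) :=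
  Submodule.span K (Set.range (eV K) ∪ Set.range (hV K))

/-- The form. -/
noncomputable def bV : (Fin 56 → K) →ₗ[K] (Fin 56 → K) →ₗ[K] K :=
  toLinearMap₂' K (of fun a c => if wt a + wt c = 0 then (1 : K) else 0)

end

end CF.Ao.Gp
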