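import Cfsg.Agent.Ao.GA

/-! Transport of `Tri` and `Pr` under conjugation. -/

set_option autoImplicit false

namespace CF.Ao.Gp

open Module Function

variable {K V : Type*} [Field K] [AddCommGroup V] [Module K V]
  {G : Type*} [Group G] {R : G →* End K V} {L : Submodule K (End K V)}
  {b : V →ₗ[K] V →ₗ[K] K} {ω : K} {x c : G} {P M : End K V}

namespace GC

variable (R) in
/-- Conjugation of endomorphisms. -/
def cj (g : G) : End K V ≃ₐ[K] End K V where
  toFun Y := R g * Y * R g⁻¹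
  invFun Y := R g⁻¹ * Y * R g
  left_inv Y := by simp only [mul_assoc, ← map_mul, inv_mul_cancel, map_one, mul_one,
    ← mul_assoc (R g⁻¹) (R g), one_mul]
  right_inv Y := by simp only [mul_assoc, ← map_mul, mul_inv_cancel, map_one, mul_one,
    ← mul_assoc (R g) (R g⁻¹), one_mul]
  map_mul' Y Z := by simp only [mul_assoc, ← map_mul, inv_mul_cancel, map_one,
    ← mul_assoc (R g⁻¹) (R g), one_mul]
  map_add' Y Z := by rw [mul_add, add_mul]
  commutes' a := by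
    rw [← Algebra.commutes, mul_assoc, ← map_mul, mul_inv_cancel, map_one, mul_one]

theorem cj_def (g : G) (Y : End K V) : R g * Y * R g⁻¹ = cj R g Y := rfl

theorem cj_symm (g : G) (Y : End K V) : (cj R g).symm Y = R g⁻¹ * Y * R g⁻¹⁻¹ := by
  rw [inv_inv]; rfl

theorem cj_R (g x : G) : R (g * x * g⁻¹) = cj R g (R x) := by rw [map_mul, map_mul]; rfl

theorem vu (g : G) (w : V) : R g⁻¹ (R g w) = w := by
  rw [← End.mul_apply, ← map_mul, inv_mul_cancel, map_one, End.one_apply]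

theorem uv (g : G) (w : V) : R g (R g⁻¹ w) = w := by
  rw [← End.mul_apply, ← map_mul, mul_inv_cancel, map_one, End.one_apply]

theorem inj (g : G) : Injective (R g) := LeftInverse.injective (vu g)

theorem cj_ap (g : G) (Y : End K V) (w : V) : cj R g Y (R g w) = R g (Y w) := by
  rw [← cj_def, End.mul_apply, End.mul_apply, vu]

theorem cj_p1 (g : G) (Y : End K V) : p1 (cj R g Y) = cj R g (p1 Y) := by
  simp only [p1, map_add, map_one, map_pow]

theorem cj_p2 (g : G) (Y : End K V) : p2 (cj R g Y) = cj R g (p2 Y) := by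
  simp only [p2, map_add, map_pow]

theorem mem_es (g : G) (Y : End K V) (a : K) (w : V) : R g w ∈ Es (cj R g Y) a ↔ w ∈ Es Y a := by
  rw [End.mem_eigenspace_iff, End.mem_eigenspace_iff, cj_ap, ← map_smul, (inj g).eq_iff]

theorem es (g : G) (Y : End K V) (a : K) : Es (cj R g Y) a = (Es Y a).map (R g) := by
  ext w
  refine ⟨fun h => ⟨R g⁻¹ w, (mem_es g Y a _).1 (by rwa [uv]), uv g w⟩, ?_⟩
  rintro ⟨v, h, rfl⟩
  exact (mem_es g Y a v).2 h

theorem rk (g : G) (U : Submodule K V) : finrank K (U.map (R g)) = finrank K U :=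
  (LinearEquiv.finrank_eq (Submodule.equivMapOfInjective _ (inj g) U)).symm

theorem cm (g : G) {Y Z : End K V} : Commute (cj R g Y) (cj R g Z) ↔ Commute Y Z := by
  rw [Commute, Commute, SemiconjBy, SemiconjBy, ← map_mul, ← map_mul, (cj R g).injective.eq_iff]

theorem all (A : Amb R L b ω) (g : G) {p : End K V → Prop} (h : ∀ Y ∈ L, p (cj R g Y)) :
    ∀ Y ∈ L, p Y := fun Y m => by
  have := h _ (A.cj g⁻¹ Y m)
  rwa [← cj_symm, AlgEquiv.apply_symm_apply] at this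

theorem cs (A : Amb R L b ω) {y f : End K V} (h : Cs L y f) (g : G) :
    Cs L (cj R g y) (cj R g f) := all A g fun Y m e => by
  rw [cj_p1, ← map_mul, map_eq_zero_iff _ (cj R g).injective] at e
  exact (cm g).2 (h Y m e)

end GC

open GC

theorem Tri.conj (A : Amb R L b ω) (T : Tri R L b ω x P M) (g : G) :
    Tri R L b ω (g * x * g⁻¹) (R g * P * R g⁻¹) (R g * M * R g⁻¹) := by
  have z : ∀ Y, cj R g Y = 0 ↔ Y = 0 := fun Y => map_eq_zero_iff _ (cj R g).injective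
  have gr : ∀ Y : End K V, (∀ t : K, ∃ h, R h = 1 + t • Y) →
      ∀ t : K, ∃ h, R h = 1 + t • cj R g Y := fun Y h t =>
    let ⟨k, e⟩ := h t
    ⟨g * k * g⁻¹, by rw [cj_R, e, map_add, map_one, map_smul]⟩
  rw [cj_def, cj_def]
  refine ⟨by rw [conj_pow, T.x3, mul_one, mul_inv_cancel], ?_, ?_, A.cj g _ T.pL, A.cj g _ T.mL, ?_,
    ?_, ?_, ?_, ?_, ?_, ?_, gr _ T.pg, gr _ T.mg, ?_, ?_, ?_, ?_⟩ <;> try rw [cj_R]
  · rw [es, rk, T.dW]
  · rw [cj_p1, Ne, z]; exact T.n1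
  · rw [cj_p2]; exact A.cj g _ T.hL
  · rw [← map_mul, T.pp, map_zero]
  · rw [← map_mul, T.mm, map_zero]
  · rw [← map_mul, ← map_mul, T.pmp]
  · rw [← map_mul, ← map_mul, T.mpm]
  · rw [← map_mul, ← map_mul, ← map_add, T.pm, cj_p2]
  · rw [cj_p2, ← map_mul, ← map_mul, ← map_smul, ← map_smul, ← map_one (cj R g), ← map_add,
      ← map_add, ← map_add, ← T.ex]
  · refine all A g fun Y m e => ?_
    rw [cj_p1, ← map_mul, z] at e
    obtain ⟨a, c, d, rfl⟩ := T.sl Y m e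
    exact ⟨a, c, d, by rw [cj_p2, map_add, map_add, map_smul, map_smul, map_smul]⟩
  · refine all A g fun Y m e k => ?_
    obtain ⟨a, rfl⟩ := T.fl Y m ((cm g).1 e) fun w h => inj g (by
      rw [← cj_ap, k _ ((mem_es g _ _ _).2 h), map_zero])
    exact ⟨a, by rw [cj_p1, map_smul]⟩
  · intro f e k
    obtain ⟨f, rfl⟩ := (cj R g).surjective f
    obtain ⟨a, h⟩ := T.sc f ((cm g).1 e) fun Y m h1 h2 =>
      (cm g).1 (k (cj R g Y) (A.cj g Y m) (by rw [← map_mul, h1, map_zero]) ((cm g).2 h2))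
    exact ⟨a, by rw [cj_p1, ← map_mul, h, map_smul]⟩
  · refine all A g fun Y m e k w h => ?_
    rw [es] at h
    obtain ⟨w, h, rfl⟩ := h
    rw [cj_ap, cj_ap, A.inv]
    exact T.alt Y m ((cm g).1 e) ((cm g).1 k) w h

theorem Pr.conj (A : Amb R L b ω) (Q : Pr R L ω x c) (g : G) :
    Pr R L ω (g * x * g⁻¹) (g * c * g⁻¹) := by
  have i : Es (cj R g (R x)) ω ⊓ Es (cj R g (R c)) ω = (Es (R x) ω ⊓ Es (R c) ω).map (R g) := by
    rw [es, es, Submodule.map_inf _ (inj g)]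
  refine ⟨?_, ?_, ?_⟩ <;> rw [cj_R, cj_R]
  · rw [i, rk, Q.d2]
  · obtain ⟨D, h1, h2, h3⟩ := Q.d4
    refine ⟨D.map (cj R g).toLinearEquiv.toLinearMap, ?_, by rwa [LinearEquiv.finrank_map_eq], ?_⟩
    · rintro _ ⟨Y, m, rfl⟩
      exact A.cj g Y (h1 m)
    · rintro _ ⟨Y, m, rfl⟩
      obtain ⟨k1, k2, k3⟩ := h3 Y m
      refine ⟨cs A k1 g, cs A k2 g, ?_⟩
      change cj R g Y * _ = 0
      rw [cj_p2, cj_p2, ← map_mul, ← map_mul, k3, map_zero]
  · intro d h
    obtain ⟨d, rfl⟩ := (cj R g).surjective d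
    rw [i] at h ⊢
    obtain ⟨z, k1, k2, k3, k4, k5⟩ := Q.z d fun v m => by
      obtain ⟨⟨w, h1, h2⟩, h3⟩ := h _ (Submodule.mem_map_of_mem m)
      rw [cj_ap] at h2
      rw [cj_ap, cj_ap] at h3
      exact ⟨inj g h2 ▸ h1, inj g h3⟩
    refine ⟨g * z * g⁻¹, ?_, ?_, ?_, ?_, ?_⟩ <;> rw [cj_R]
    · exact cs A k1 g
    · exact cs A k2 g
    · rintro _ ⟨v, m, rfl⟩
      rw [cj_ap, cj_ap, k3 v m]
    · rw [es]
      rintro _ ⟨v, m, rfl⟩ e
      rw [cj_ap] at e ⊢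
      rw [k4 v m (inj g e)]
    · rw [es]
      rintro _ ⟨v, m, rfl⟩ e
      rw [cj_ap] at e ⊢
      rw [k5 v m (inj g e)]

end CF.Ao.Gp
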