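import Cfsg.Agent.Ao.GS

/-! Gap of S5771: the system of root involutions attached to the 3-cycles. -/

set_option autoImplicit false

namespace CF.Ao.Gp

open Module Function Equiv Equiv.Perm

section
variable {K V : Type*} [Field K] [AddCommGroup V] [Module K V] [FiniteDimensional K V]
  {G : Type*} [Group G] {R : G →* End K V} {L : Submodule K (End K V)} {b : V →ₗ[K] V →ₗ[K] K} {ω : K}
variable {Ω : Type*} [Fintype Ω] [DecidableEq Ω] {j : alternatingGroup Ω →* G} {s : Ω → Ω → Ω → G}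

theorem s2_three {a c d : Ω} (n : [a, c, d].Nodup) : (s2 a c a d).1.IsThreeCycle := by
  have h : a ≠ c ∧ a ≠ d ∧ c ≠ d := by simp at n; tauto
  rw [s2_val h.1 h.2.1]
  exact isThreeCycle_swap_mul_swap_same h.1 h.2.1 h.2.2

theorem exists_s2 {x : alternatingGroup Ω} (h : x.1.IsThreeCycle) :
    ∃ a c d, [a, c, d].Nodup ∧ x = s2 a c a d := by
  obtain ⟨a, ha⟩ := h.isCycle.nonempty_support
  have n := h.nodup_iff_mem_support.2 ha
  have e := h.eq_swap_mul_swap_iff_mem_support.2 ha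
  have n' : a ≠ x.1 a ∧ a ≠ x.1 (x.1 a) ∧ x.1 a ≠ x.1 (x.1 a) := by
    simp only [List.nodup_cons, List.mem_cons, List.not_mem_nil] at n
    tauto
  refine ⟨x.1 a, a, x.1 (x.1 a), ?_, Subtype.ext ?_⟩
  · simp only [List.nodup_cons, List.mem_cons, List.not_mem_nil, List.nodup_nil]
    tauto
  · rw [s2_val n'.1.symm n'.2.2, swap_comm (x.1 a) a]
    exact e

namespace GD

theorem spare (h : 5 ≤ Fintype.card Ω) {a c d : Ω} (n : [a, c, d].Nodup) :
    ∃ u v, [a, c, d, u, v].Nodup := by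
  have h1 : ({a, c, d} : Finset Ω).card ≤ 3 := Finset.card_le_three
  have h2 : 1 < ({a, c, d} : Finset Ω)ᶜ.card := by rw [Finset.card_compl]; omega
  obtain ⟨u, v, hu, hv, huv⟩ := Finset.one_lt_card_iff.1 h2
  refine ⟨u, v, ?_⟩
  simp only [Finset.mem_compl, Finset.mem_insert, Finset.mem_singleton] at hu hv
  simp only [List.nodup_cons, List.mem_cons, List.not_mem_nil, List.nodup_nil] at n ⊢
  grind

theorem nd5 {a c d u v : Ω} (n : [a, c, d, u, v].Nodup) :
    a ≠ c ∧ a ≠ d ∧ a ≠ u ∧ a ≠ v ∧ c ≠ d ∧ c ≠ u ∧ c ≠ v ∧ d ≠ u ∧ d ≠ v ∧ u ≠ v := by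
  simp only [List.nodup_cons, List.mem_cons, List.not_mem_nil] at n
  tauto

theorem nd3 {a c d u v : Ω} (n : [a, c, d, u, v].Nodup) : [a, c, d].Nodup := by
  have := nd5 n
  simp only [List.nodup_cons, List.mem_cons, List.not_mem_nil, List.nodup_nil]
  tauto

theorem sq {a c d u v : Ω} (n : [a, c, d, u, v].Nodup) : s2 a c u v * s2 a c u v = 1 := by
  obtain ⟨h1, h2, h3, h4, h5, h6, h7, h8, h9, h10⟩ := nd5 n
  apply Subtype.ext
  rw [Subgroup.coe_mul, s2_val h1 h10, Subgroup.coe_one]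
  ext w
  simp only [Perm.mul_apply, swap_apply_def, Perm.one_apply]
  grind

theorem invt {a c d u v : Ω} (n : [a, c, d, u, v].Nodup) :
    s2 a c u v * s2 a c a d * (s2 a c u v)⁻¹ = (s2 a c a d)⁻¹ := by
  obtain ⟨h1, h2, h3, h4, h5, h6, h7, h8, h9, h10⟩ := nd5 n
  rw [eq_inv_iff_mul_eq_one, ← eq_inv_of_mul_eq_one_left (sq n)]
  apply Subtype.ext
  simp only [Subgroup.coe_mul, s2_val h1 h10, s2_val h1 h2, Subgroup.coe_one]
  ext w
  simp only [Perm.mul_apply, swap_apply_def, Perm.one_apply]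
  grind

theorem flip {a c d : Ω} (n : [a, c, d].Nodup) : s2 c a c d = (s2 a c a d)⁻¹ := by
  have h : a ≠ c ∧ a ≠ d ∧ c ≠ d := by simp at n; tauto
  obtain ⟨h1, h2, h3⟩ := h
  rw [eq_inv_iff_mul_eq_one]
  apply Subtype.ext
  simp only [Subgroup.coe_mul, s2_val h1.symm h3, s2_val h1 h2, Subgroup.coe_one]
  ext w
  simp only [Perm.mul_apply, swap_apply_def, Perm.one_apply]
  grind

theorem cj (σ : Perm Ω) {a c d e : Ω} (h : a ≠ c) (k : d ≠ e) :
    MulAut.conjNormal σ (s2 a c d e) = s2 (σ a) (σ c) (σ d) (σ e) := by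
  apply Subtype.ext
  rw [MulAut.conjNormal_apply, s2_val h k, s2_val (σ.injective.ne h) (σ.injective.ne k),
    swap_apply_apply, swap_apply_apply]
  group

theorem dj {a c d : Ω} (n : [a, c, d].Nodup) {g : Perm Ω} (ha : g a = a) (hc : g c = c)
    (hd : g d = d) : (s2 a c a d).1.Disjoint g := by
  have h : a ≠ c ∧ a ≠ d ∧ c ≠ d := by simp at n; tauto
  rw [s2_val h.1 h.2.1]
  intro w
  simp only [Perm.mul_apply, swap_apply_def]
  grind

omit [FiniteDimensional K V] in
theorem comm (A : Amb R L b ω) {x g t : G} (h : Cs L (R x) (R g)) (k : Si L (R x) (R t)) :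
    Commute t g := by
  have h1 := h _ k.mem k.kl
  apply A.inj
  rw [map_mul, map_mul]
  have h2 := h1.eq
  rw [mul_add, add_mul, mul_one, one_mul] at h2
  exact (add_right_cancel h2).symm

end GD

theorem Al3.cs (A : Al3 R L b ω j) {x g : alternatingGroup Ω} (h : x.1.IsThreeCycle)
    (d : x.1.Disjoint g.1) : Cs L (R (j x)) (R (j g)) := by
  obtain ⟨P, M, T⟩ := A.tri x h
  have hg : g ∈ (alternatingGroup.ofSubtype x.1.supportᶜ).range := by
    rw [alternatingGroup.mem_range_ofSubtype_iff]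
    exact d.symm.disjoint_support.le_compl_right
  obtain ⟨k, rfl⟩ := hg
  have h5 : 5 ≤ Nat.card ↥(x.1.supportᶜ) := by
    have := A.h8
    rw [Nat.card_eq_fintype_card, Fintype.card_coe, Finset.card_compl, h.card_support]
    omega
  have hk : k ∈ Subgroup.closure {g : alternatingGroup ↥(x.1.supportᶜ) |
      (g : Perm ↥(x.1.supportᶜ)).cycleType = {2, 2}} := by
    rw [alternatingGroup.closure_cycleType_eq_two_two_eq_top h5]
    trivial
  clear d
  induction hk using Subgroup.closure_induction with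
  | mem k hk =>
    refine T.two A.toAmb (Commute.map ?_ j) ?_
    · apply Subtype.ext
      have hs : (alternatingGroup.ofSubtype x.1.supportᶜ k).1.support ⊆ x.1.supportᶜ :=
        (alternatingGroup.mem_range_ofSubtype_iff _ _).1 ⟨k, rfl⟩
      exact (Perm.disjoint_iff_disjoint_support.2
        (Finset.disjoint_left.2 fun a ha => Finset.mem_compl.1 (hs ha))).commute.eq
    · have ho : orderOf k.1 = 2 := by
        rw [← lcm_cycleType, show k.1.cycleType = {2, 2} from hk]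
        decide
      have : k * k = 1 := Subtype.ext (by
        rw [Subgroup.coe_mul, ← pow_two, ← ho, pow_orderOf_eq_one, Subgroup.coe_one])
      rw [← map_mul, ← map_mul, this, map_one, map_one]
  | one =>
    rw [map_one, map_one, map_one]
    exact fun Y _ _ => Commute.one_left Y
  | mul k l _ _ ik il =>
    rw [map_mul, map_mul, map_mul]
    exact ik.mul il
  | inv k _ ik =>
    rw [map_inv, map_inv]
    exact ik.inv

theorem Al3.sys [IsAlgClosed K] (A : Al3 R L b ω j) : ∃ s, Sys R L j s := by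
  have h5 : 5 ≤ Fintype.card Ω := by have := A.h8; omega
  have hi : ∀ {a c d u v : Ω}, [a, c, d, u, v].Nodup → j (s2 a c u v) * j (s2 a c u v) = 1 ∧
      j (s2 a c u v) * j (s2 a c a d) * (j (s2 a c u v))⁻¹ = (j (s2 a c a d))⁻¹ := fun n =>
    ⟨by rw [← map_mul, GD.sq n, map_one], by rw [← map_inv, ← map_mul, ← map_mul, GD.invt n, map_inv]⟩
  have ex : ∀ a c d : Ω, ∃ t : G, [a, c, d].Nodup → Si L (R (j (s2 a c a d))) (R t) ∧
      ∃ u v, [a, c, d, u, v].Nodup ∧ Commute t (j (s2 a c u v)) := by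
    intro a c d
    by_cases n : [a, c, d].Nodup
    · obtain ⟨u, v, m⟩ := GD.spare h5 n
      obtain ⟨P, M, T⟩ := A.tri _ (s2_three n)
      obtain ⟨t, h1, h2⟩ := T.si_ex A.toAmb (hi m).1 (hi m).2
      exact ⟨t, fun _ => ⟨h1, u, v, m, h2⟩⟩
    · exact ⟨1, fun m => absurd m n⟩
  choose s hs using ex
  have cm : ∀ a c d, [a, c, d].Nodup → ∀ g : alternatingGroup Ω, g.1 a = a → g.1 c = c →
      g.1 d = d → Commute (s a c d) (j g) := fun a c d n g ha hc hd =>
    GD.comm A.toAmb (A.cs (s2_three n) (GD.dj n ha hc hd)) (hs a c d n).1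
  have c2 : ∀ a c d u v, [a, c, d, u, v].Nodup → Commute (s a c d) (j (s2 a c u v)) := by
    intro a c d u v m
    obtain ⟨u', v', m', k⟩ := (hs a c d (GD.nd3 m)).2
    obtain ⟨h1, h2, h3, h4, h5, h6, h7, h8, h9, h10⟩ := GD.nd5 m
    obtain ⟨-, -, k3, k4, -, k6, k7, k8, k9, k10⟩ := GD.nd5 m'
    have e : s2 a c u v = s2 a c u' v' * s2 u' v' u v := by
      apply Subtype.ext
      rw [Subgroup.coe_mul, s2_val h1 h10, s2_val h1 k10, s2_val k10 h10, mul_assoc,
        swap_mul_self_mul]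
    rw [e, map_mul]
    refine k.mul_right (cm a c d (GD.nd3 m) _ ?_ ?_ ?_) <;> rw [s2_val k10 h10] <;>
      simp only [Perm.mul_apply, swap_apply_def] <;> grind
  refine ⟨s, fun a c d n => (hs a c d n).1, cm, c2, fun a c d u v m t h k => ?_⟩
  obtain ⟨P, M, T⟩ := A.tri _ (s2_three (GD.nd3 m))
  exact A.inj (T.si_uq A.toAmb (hi m).1 (hi m).2 h (hs a c d (GD.nd3 m)).1 (k.map R)
    ((c2 a c d u v m).map R))

theorem Sys.sq (A : Al3 R L b ω j) (h : Sys R L j s) {a c d : Ω} (n : [a, c, d].Nodup) :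
    s a c d * s a c d = 1 :=
  A.inj (by rw [map_mul, map_one]; exact (h.si a c d n).sq)

theorem Sys.symm (A : Al3 R L b ω j) (h : Sys R L j s) {a c d : Ω} (n : [a, c, d].Nodup) :
    s a c d = s c a d := by
  obtain ⟨u, v, m⟩ := GD.spare (by have := A.h8; omega) n
  obtain ⟨P, M, T⟩ := A.tri _ (s2_three n)
  refine h.uq c a d u v ?_ _ ?_ ?_
  · have := GD.nd5 m
    simp only [List.nodup_cons, List.mem_cons, List.not_mem_nil, List.nodup_nil]
    tauto
  · rw [GD.flip n, map_inv]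
    exact Si.symm T.x3 (h.si a c d n)
  · have : s2 c a u v = s2 a c u v := by rw [s2, s2, swap_comm]
    rw [this]
    exact h.c2 a c d u v m

theorem Sys.inv (A : Al3 R L b ω j) (h : Sys R L j s) {a c d : Ω} (n : [a, c, d].Nodup) :
    s a c d * j (s2 a c a d) * (s a c d)⁻¹ = (j (s2 a c a d))⁻¹ := by
  obtain ⟨P, M, T⟩ := A.tri _ (s2_three n)
  have e : s a c d * j (s2 a c a d) = j (s2 a c a d) ^ 2 * s a c d :=
    A.inj (by rw [map_mul, map_mul, map_pow]; exact (h.si a c d n).inv)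
  rw [e, mul_inv_cancel_right, eq_inv_iff_mul_eq_one, ← pow_succ]
  exact T.x3

/-- Conjugation by any element that acts on the alternating group as the permutation `σ`. -/
theorem Sys.cj (A : Al3 R L b ω j) (h : Sys R L j s) {g : G} {σ : Perm Ω}
    (e : ∀ y, g * j y * g⁻¹ = j (MulAut.conjNormal σ y)) {a c d : Ω} (n : [a, c, d].Nodup) :
    g * s a c d * g⁻¹ = s (σ a) (σ c) (σ d) := by
  obtain ⟨u, v, m⟩ := GD.spare (by have := A.h8; omega) n
  obtain ⟨h1, h2, -, -, -, -, -, -, -, h10⟩ := GD.nd5 m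
  refine h.uq _ _ _ (σ u) (σ v) (m.map σ.injective) _ ?_ ?_
  · rw [← GD.cj σ h1 h2, ← e, map_mul R (g * s a c d), map_mul R g (s a c d)]
    exact Si.conj A.toAmb (h.si a c d n) g
  · rw [← GD.cj σ h1 h10, ← e]
    exact (h.c2 a c d u v m).map (MulAut.conj g)

theorem Sys.cs (A : Al3 R L b ω j) (h : Sys R L j s) {a c d u v : Ω} (n : [a, c, d, u, v].Nodup) :
    Cs L (R (j (s2 a c a d))) (R (j (s2 a c u v) * s a c d)) := by
  have m := GD.nd3 n
  obtain ⟨P, M, T⟩ := A.tri _ (s2_three m)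
  have e1 := h.inv A m
  have e2 : j (s2 a c u v) * j (s2 a c a d) * (j (s2 a c u v))⁻¹ = (j (s2 a c a d))⁻¹ := by
    rw [← map_inv, ← map_mul, ← map_mul, GD.invt n, map_inv]
  have e3 : j (s2 a c u v) * j (s2 a c u v) = 1 := by rw [← map_mul, GD.sq n, map_one]
  refine T.two A.toAmb ?_ ?_
  · generalize j (s2 a c u v) = t at e2
    generalize j (s2 a c a d) = x at e1 e2
    generalize s a c d = y at e1
    have e4 : t * x⁻¹ * t⁻¹ = x := by
      calc t * x⁻¹ * t⁻¹ = (t * x * t⁻¹)⁻¹ := by group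
        _ = x := by rw [e2, inv_inv]
    calc t * y * x = t * (y * x * y⁻¹) * t⁻¹ * (t * y) := by group
      _ = x * (t * y) := by rw [e1, e4]
  · rw [mul_assoc, ← mul_assoc (s a c d), (h.c2 a c d u v n).eq, mul_assoc, h.sq A m, mul_one, e3]

end

end CF.Ao.Gp
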