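import Cfsg.Agent.Ao.GS

/-! Alternating subgroups of `E₇(q)`, `q` even: faithfulness and ranks (piece GF). -/

set_option autoImplicit false

namespace CF.Ao.Gp

open Module Function Equiv Equiv.Perm CF.E83 CF.Al

variable {K V : Type*} [Field K] [AddCommGroup V] [Module K V] [FiniteDimensional K V]
  {G : Type*} [Group G] {R : G →* End K V} {L : Submodule K (End K V)} {b : V →ₗ[K] V →ₗ[K] K} {ω : K}
  {x c g τ : G} {P M P' M' S S' f f' : End K V}

namespace GF

omit [FiniteDimensional K V]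

theorem vv (A : Amb R L b ω) (v : V) : v + v = 0 := by rw [← two_smul K v, A.two, zero_smul]

theorem pp (T : Tri R L b ω x P M) (v : V) : P (P v) = 0 := LinearMap.congr_fun T.pp v
theorem mm (T : Tri R L b ω x P M) (v : V) : M (M v) = 0 := LinearMap.congr_fun T.mm v
theorem pmp (T : Tri R L b ω x P M) (v : V) : P (M (P v)) = P v := LinearMap.congr_fun T.pmp v
theorem mpm (T : Tri R L b ω x P M) (v : V) : M (P (M v)) = M v := LinearMap.congr_fun T.mpm v
theorem pm (T : Tri R L b ω x P M) (v : V) : p2 (R x) v = P (M v) + M (P v) :=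
  (LinearMap.congr_fun T.pm v).symm

theorem dec (A : Amb R L b ω) (T : Tri R L b ω x P M) (v : V) :
    v = p1 (R x) v + P (M v) + M (P v) := by
  have h : p1 (R x) v = v + p2 (R x) v := by simp [add_assoc]
  rw [add_assoc, ← pm T, h, add_assoc, vv A, add_zero]

theorem om0 (A : Amb R L b ω) : ω ≠ 0 := fun e => by simpa [e] using A.om

theorem mem (A : Amb R L b ω) (T : Tri R L b ω x P M) {w : V} :
    w ∈ Es (R x) ω ↔ P (M w) = w := by
  have h : R x w = w + (P (M w) + M (P w)) + ω • P (M w) + ω ^ 2 • M (P w) := by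
    rw [← pm T]
    conv_lhs => rw [T.ex]
    simp
  rw [End.mem_eigenspace_iff, h]
  constructor
  · intro e
    have h1 := congrArg P e
    simp only [map_add, map_smul, pp T, pmp T, smul_zero, add_zero, zero_add] at h1
    have h2 : P w = 0 := by
      have : (1 + 1 + ω ^ 2 - ω) • P w = 0 := by
        rw [sub_smul, add_smul, add_smul, one_smul, h1, sub_self]
      have h3 : 1 + 1 + ω ^ 2 - ω = 1 := by linear_combination A.om + (-ω) * A.two
      rwa [h3, one_smul] at this
    rw [h2] at e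
    simp only [map_zero, smul_zero, add_zero] at e
    have h4 : (1 + ω) • (P (M w) - w) = 0 := by
      have := vv A w
      linear_combination (norm := module) e - this
    have h5 : 1 + ω ≠ 0 := fun z => pow_ne_zero 2 (om0 A) (by linear_combination A.om - z)
    exact sub_eq_zero.1 ((smul_eq_zero.1 h4).resolve_left h5)
  · intro e
    have h2 : P w = 0 := by rw [← e, pp T]
    rw [h2, e, map_zero, add_zero, vv A, zero_add, smul_zero, add_zero]

theorem memP (A : Amb R L b ω) (T : Tri R L b ω x P M) (v : V) : P v ∈ Es (R x) ω :=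
  (mem A T).2 (pmp T v)

theorem kP (A : Amb R L b ω) (T : Tri R L b ω x P M) {w : V} (m : w ∈ Es (R x) ω) : P w = 0 := by
  rw [← (mem A T).1 m, pp T]

theorem stab {y : End K V} (h : Commute f y) {w : V} (m : w ∈ Es y ω) : f w ∈ Es y ω := by
  rw [End.mem_eigenspace_iff] at m ⊢
  rw [← End.mul_apply, ← h.eq, End.mul_apply, m, map_smul]

theorem nf (A : Amb R L b ω) {t : K} (e : S = 1 + p2 (R x) + t • P + t⁻¹ • M)
    (T : Tri R L b ω x P M) (v : V) :
    (S + 1) v = P (M v) + M (P v) + t • P v + t⁻¹ • M v := by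
  rw [e, ← pm T]
  have := vv A v
  simp only [LinearMap.add_apply, LinearMap.smul_apply, End.one_apply]
  linear_combination (norm := module) this

theorem nq (A : Amb R L b ω) {t : K} (t0 : t ≠ 0) (e : S = 1 + p2 (R x) + t • P + t⁻¹ • M)
    (T : Tri R L b ω x P M) (v : V) : (S + 1) ((P * M + t • P) v) = (S + 1) v := by
  rw [nf A e T, nf A e T]
  simp only [LinearMap.add_apply, LinearMap.smul_apply, End.mul_apply, map_add, map_smul, pp T,
    pmp T, mpm T, map_zero, smul_zero, add_zero, smul_add, smul_smul, inv_mul_cancel₀ t0, one_smul]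
  abel

theorem pn (A : Amb R L b ω) {t : K} (e : S = 1 + p2 (R x) + t • P + t⁻¹ • M)
    (T : Tri R L b ω x P M) {w : V} (m : w ∈ Es (R x) ω) : P ((S + 1) w) = t⁻¹ • w := by
  rw [nf A e T, kP A T m]
  simp only [map_add, map_smul, pp T, map_zero, smul_zero, add_zero, zero_add, (mem A T).1 m,
    kP A T m]

theorem memQ (A : Amb R L b ω) (T : Tri R L b ω x P M) (t : K) (v : V) :
    (P * M + t • P) v ∈ Es (R x) ω :=
  add_mem (memP A T _) (Submodule.smul_mem _ _ (memP A T _))

theorem rk {N : End K V} {W : Submodule K V} (h1 : ∀ v, ∃ w ∈ W, N w = N v)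
    (h2 : ∀ w ∈ W, N w = 0 → w = 0) : finrank K (LinearMap.range N) = finrank K W := by
  have e : LinearMap.range N = LinearMap.range (N ∘ₗ W.subtype) := by
    refine le_antisymm ?_ (LinearMap.range_comp_le_range _ _)
    rintro _ ⟨v, rfl⟩
    obtain ⟨w, m, e⟩ := h1 v
    exact ⟨⟨w, m⟩, e⟩
  rw [e]
  exact LinearMap.finrank_range_of_inj
    ((injective_iff_map_eq_zero _).2 fun w hw => Subtype.ext (h2 w w.2 hw))

end GF

open GF

theorem Tri.fa (A : Amb R L b ω) (T : Tri R L b ω x P M) (h : Cs L (R x) (R g))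
    (e : ∀ w ∈ Es (R x) ω, R g w = w) : g = 1 := by
  have cx := T.cm A h
  have cM := h M T.mL (T.p0 A).2
  have gi : ∀ v, R g (R g⁻¹ v) = v := fun v => by rw [← End.mul_apply, ← map_mul]; simp
  have ig : ∀ v, R g⁻¹ (R g v) = v := fun v => by rw [← End.mul_apply, ← map_mul]; simp
  have gi' : R g⁻¹ * R g = 1 := by rw [← map_mul]; simp
  have x3 : R x ^ 3 = 1 := by rw [← map_pow, T.x3, map_one]
  have ee : ∀ Y : End K V, Y + Y = 0 := fun Y => LinearMap.ext fun v => vv A _
  have p11 : p1 (R x) * p1 (R x) = p1 (R x) := by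
    have h1 : p1 (R x) * p1 (R x) = (1 + R x ^ 3 * R x + R x ^ 2) +
        ((R x + R x ^ 2 + R x ^ 3) + (R x + R x ^ 2 + R x ^ 3)) := by
      simp only [p1]; noncomm_ring
    rw [h1, ee, x3, one_mul, add_zero]
  have cx' : Commute (R g⁻¹) (R x) := by
    have : Commute g x := A.inj (by rw [map_mul, map_mul]; exact cx.eq)
    exact (this.inv_left).map R
  obtain ⟨a, ha⟩ := T.sc (R g) cx fun Y m y2 cy => by
    obtain ⟨a, ha⟩ := T.fl (R g * Y * R g⁻¹ + Y) (add_mem (A.cj g Y m) m)
      (((cx.mul_left cy).mul_left cx').add_left cy) fun w mw => by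
        have h1 : R g⁻¹ w = w := by conv_lhs => rw [← e w mw, ig]
        simp only [LinearMap.add_apply, End.mul_apply, h1, e _ (stab cy mw), vv A]
    have h1 : R g * Y * R g⁻¹ = Y + a • p1 (R x) := by rw [← ha, add_left_comm, ee, add_zero]
    have cp : Commute Y (p1 (R x)) :=
      ((Commute.one_right Y).add_right cy).add_right (cy.pow_right 2)
    have h2 : (R g * Y * R g⁻¹) * (R g * Y * R g⁻¹) = 0 := by
      rw [show (R g * Y * R g⁻¹) * (R g * Y * R g⁻¹) = R g * Y * (R g⁻¹ * R g) * Y * R g⁻¹ by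
        simp only [mul_assoc], gi', mul_one, mul_assoc (R g), y2, mul_zero, zero_mul]
    rw [h1, add_mul, mul_add, mul_add, y2, zero_add, mul_smul_comm, smul_mul_assoc, ← cp.eq,
      ← add_assoc, ee, zero_add, smul_mul_smul_comm, p11] at h2
    have a0 : a = 0 := mul_self_eq_zero.1 ((smul_eq_zero.1 h2).resolve_right T.n1)
    rw [a0, zero_smul, add_zero] at h1
    show R g * Y = Y * R g
    conv_rhs => rw [← h1, mul_assoc, gi', mul_one]
  have ha' : ∀ v, R g (p1 (R x) v) = a • p1 (R x) v := fun v => LinearMap.congr_fun ha v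
  have a1 : a = 1 := by
    obtain ⟨v, hv⟩ : ∃ v, p1 (R x) v ≠ 0 := by
      by_contra! hh
      exact T.n1 (LinearMap.ext hh)
    obtain ⟨w, hw⟩ : ∃ w, b (p1 (R x) v) w ≠ 0 := by
      by_contra! hh
      exact hv (A.nd _ hh)
    have k1 : P (p1 (R x) v) = 0 := LinearMap.congr_fun (T.p0 A).1 v
    have k2 : M (p1 (R x) v) = 0 := LinearMap.congr_fun (T.p0 A).2 v
    rw [dec A T w, map_add, map_add, ← A.skew P T.pL, k1, ← A.skew M T.mL (p1 (R x) v), k2] at hw
    simp only [map_zero, LinearMap.zero_apply, add_zero] at hw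
    have h1 := A.inv g (p1 (R x) v) (p1 (R x) w)
    rw [ha', ha'] at h1
    simp only [map_smul, LinearMap.smul_apply, smul_eq_mul] at h1
    have h2 : a * a = 1 := mul_right_cancel₀ hw (by rw [mul_assoc, h1, one_mul])
    have h3 : (a - 1) * (a - 1) = 0 := by linear_combination h2 + (1 - a) * A.two
    exact sub_eq_zero.1 (mul_self_eq_zero.1 h3)
  refine A.inj (LinearMap.ext fun v => ?_)
  rw [map_one, End.one_apply]
  conv => lhs; rw [dec A T v]
  rw [map_add, map_add, ha', a1, one_smul, e _ (memP A T _), ← End.mul_apply (R g) M, cM.eq,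
    End.mul_apply, e _ (memP A T _), ← dec A T v]

theorem Tri.rk1 (A : Amb R L b ω) (T : Tri R L b ω x P M) (h : Si L (R x) S) :
    finrank K (LinearMap.range (S + 1)) = 12 := by
  obtain ⟨t, t0, e⟩ := T.form A h
  rw [← T.dW]
  refine rk (fun v => ⟨_, memQ A T t v, nq A t0 e T v⟩) fun w m z => ?_
  have := pn A e T m
  rw [z, map_zero] at this
  exact (smul_eq_zero.1 this.symm).resolve_left (inv_ne_zero t0)

theorem Tri.rk2 (A : Amb R L b ω) (T : Tri R L b ω x P M) (T' : Tri R L b ω c P' M') (Q : Pr R L ω x c)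
    (k : Cs L (R c) (R x)) (h : Si L (R x) S) (h' : Si L (R c) S') :
    finrank K (LinearMap.range ((S + 1) * (S' + 1))) = 2 := by
  obtain ⟨t, t0, e⟩ := T.form A h
  obtain ⟨t', t0', e'⟩ := T'.form A h'
  have sP := T.sl2 A T' k T'.pL (T'.p0 A).1
  have sM := T.sl2 A T' k T'.mL (T'.p0 A).2
  have sN := T.sl2 A T' k h'.mem h'.kl
  have cq : ∀ Y, Cs L (R x) Y → Commute Y (P * M + t • P) := fun Y hY =>
    ((hY P T.pL (T.p0 A).1).mul_right (hY M T.mL (T.p0 A).2)).add_right
      ((hY P T.pL (T.p0 A).1).smul_right t)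
  have cQ : Commute (P' * M' + t' • P') (P * M + t • P) :=
    ((cq _ sP).mul_left (cq _ sM)).add_left ((cq _ sP).smul_left t')
  rw [← Q.d2]
  refine rk (fun v => ⟨(P * M + t • P) ((P' * M' + t' • P') v), ⟨memQ A T t _, ?_⟩, ?_⟩)
    fun w m z => ?_
  · rw [← End.mul_apply, ← cQ.eq]
    exact memQ A T' t' _
  · rw [End.mul_apply, End.mul_apply, ← End.mul_apply (S' + 1), (cq _ sN).eq, End.mul_apply,
      nq A t0 e T, nq A t0' e' T']
  · have h1 := congrArg (fun u => P (P' u)) z
    simp only [End.mul_apply, map_zero] at h1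
    rw [← End.mul_apply P', (sP _ h.mem h.kl).eq, End.mul_apply, pn A e' T' m.2, map_smul, map_smul,
      pn A e T m.1, smul_smul] at h1
    exact (smul_eq_zero.1 h1).resolve_left (mul_ne_zero (inv_ne_zero t0') (inv_ne_zero t0))

/-- The form `B(w, w') = b w (M w')` is nondegenerate on the eigenspace. -/
theorem Tri.nd (A : Amb R L b ω) (T : Tri R L b ω x P M) {w : V} (m : w ∈ Es (R x) ω)
    (h : ∀ w' ∈ Es (R x) ω, b w (M w') = 0) : w = 0 := by
  refine A.nd w fun v => ?_
  have k1 : P (p1 (R x) v) = 0 := LinearMap.congr_fun (T.p0 A).1 v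
  rw [dec A T v, map_add, map_add, h _ (memP A T v), ← A.skew P T.pL, kP A T m]
  conv => lhs; lhs; lhs; rw [← (mem A T).1 m, A.skew P T.pL, k1]
  simp

/-- Two maps that agree on `V₊₊` agree on `[W, c]`. -/
theorem Tri.e3 (A : Amb R L b ω) (T : Tri R L b ω x P M) (T' : Tri R L b ω c P' M')
    (k : Cs L (R c) (R x)) (h : Cs L (R c) f) (h' : Cs L (R c) f')
    (e : ∀ v ∈ Es (R x) ω ⊓ Es (R c) ω, f v = f' v) {w : V} (m : w ∈ Es (R x) ω) :
    f (p2 (R c) w) = f' (p2 (R c) w) := by
  have cP := (k P' T'.pL (T'.p0 A).1).symm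
  have cM := (k M' T'.mL (T'.p0 A).2).symm
  rw [GF.pm T', map_add, map_add, e _ ⟨stab cP (stab cM m), memP A T' _⟩, ← End.mul_apply f M',
    ← End.mul_apply f' M', (h M' T'.mL (T'.p0 A).2).eq, (h' M' T'.mL (T'.p0 A).2).eq, End.mul_apply,
    End.mul_apply, e _ ⟨stab cP m, memP A T' _⟩]

end CF.Ao.Gp
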