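import Cfsg.Agent.Ao.GA

/-! The `SL₂` of a quadratic element of order three. -/

set_option autoImplicit false
set_option linter.unusedSectionVars false

namespace CF.Ao.Gp

open Module Function

variable {K V : Type*} [Field K] [AddCommGroup V] [Module K V] [FiniteDimensional K V]
  {G : Type*} [Group G] {R : G →* End K V} {L : Submodule K (End K V)} {b : V →ₗ[K] V →ₗ[K] K} {ω : K}
  {x c g τ : G} {P M P' M' S S' f f' : End K V}

namespace GS

/-- conjugation -/
def cj (R : G →* End K V) (g : G) : End K V →ₐ[K] End K V where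
  toFun y := R g * y * R g⁻¹
  map_one' := by rw [mul_one, ← map_mul, mul_inv_cancel, map_one]
  map_mul' y z := by
    have : R g⁻¹ * R g = 1 := by rw [← map_mul, inv_mul_cancel, map_one]
    calc R g * (y * z) * R g⁻¹ = R g * y * (R g⁻¹ * R g) * z * R g⁻¹ := by
          rw [this]; simp only [mul_one, mul_assoc]
      _ = _ := by simp only [mul_assoc]
  map_zero' := by simp
  map_add' y z := by rw [mul_add, add_mul]
  commutes' a := by
    rw [← Algebra.commutes, mul_assoc, ← map_mul, mul_inv_cancel, map_one, mul_one]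

theorem cj_apply (g : G) (y : End K V) : cj R g y = R g * y * R g⁻¹ := rfl

theorem cj_R (g x : G) : cj R g (R x) = R (g * x * g⁻¹) := by rw [cj_apply, map_mul, map_mul]

theorem cj_cj (g h : G) (y : End K V) : cj R g (cj R h y) = cj R (g * h) y := by
  rw [cj_apply, cj_apply, cj_apply, mul_inv_rev, R.map_mul, R.map_mul]
  simp only [mul_assoc]

theorem cj_one (y : End K V) : cj R 1 y = y := by simp [cj_apply]

theorem cj_p1 (g : G) (y : End K V) : cj R g (p1 y) = p1 (cj R g y) := by simp [p1]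

theorem cj_p2 (g : G) (y : End K V) : cj R g (p2 y) = p2 (cj R g y) := by simp [p2]

theorem cj_eq_iff {y : End K V} : cj R g y = y ↔ Commute (R g) y := by
  have h1 : R g⁻¹ * R g = 1 := by rw [← map_mul, inv_mul_cancel, map_one]
  have h2 : R g * R g⁻¹ = 1 := by rw [← map_mul, mul_inv_cancel, map_one]
  constructor
  · intro h
    have := congrArg (· * R g) h
    simp only [cj_apply, mul_assoc, h1, mul_one] at this
    exact this
  · intro h
    rw [cj_apply, h.eq, mul_assoc, h2, mul_one]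

theorem aa (A : Amb R L b ω) {W : Type*} [AddCommGroup W] [Module K W] (a : W) : a + a = 0 := by
  rw [← two_smul K a, A.two, zero_smul]

theorem w0 (A : Amb R L b ω) : ω ≠ 0 := by
  rintro rfl
  simpa using A.om

theorem w3 (A : Amb R L b ω) : ω ^ 3 = 1 := by linear_combination (ω - 1) * A.om

theorem ww (A : Amb R L b ω) {d : K} (h : d * ω = ω ^ 2 * d) : d = 0 := by
  linear_combination h + d * A.om + (- d * ω) * A.two + (d * ω ^ 2 - d * ω ^ 2) * A.two

theorem sq_inj (A : Amb R L b ω) {s t : K} (h : s * s = t * t) : s = t := by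
  have : (s - t) ^ 2 = 0 := by linear_combination h + (t * t - s * t) * A.two
  exact sub_eq_zero.1 (pow_eq_zero_iff two_ne_zero |>.1 this)

/-- matrix coordinates -/
def q (P M : End K V) (a b c d : K) : End K V := a • (P * M) + b • P + c • M + d • (M * P)

section
variable (A : Amb R L b ω) (T : Tri R L b ω x P M)
include T

theorem q_mul (a b' c d a' b'' c' d' : K) : q P M a b' c d * q P M a' b'' c' d' =
    q P M (a * a' + b' * c') (a * b'' + b' * d') (c * a' + d * c') (c * b'' + d * d') := by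
  have h1 : ∀ y, P * (P * y) = 0 := fun y => by rw [← mul_assoc, T.pp, zero_mul]
  have h2 : ∀ y, M * (M * y) = 0 := fun y => by rw [← mul_assoc, T.mm, zero_mul]
  have h3 : ∀ y, P * (M * (P * y)) = P * y := fun y => by rw [← mul_assoc, ← mul_assoc, T.pmp]
  have h4 : ∀ y, M * (P * (M * y)) = M * y := fun y => by rw [← mul_assoc, ← mul_assoc, T.mpm]
  have h5 : P * (M * P) = P := by rw [← mul_assoc, T.pmp]
  have h6 : M * (P * M) = M := by rw [← mul_assoc, T.mpm]
  simp only [q, mul_add, add_mul, smul_mul_assoc, mul_smul_comm, mul_assoc, h1, h2, h3, h4, h5, h6,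
    T.pp, T.mm, mul_zero, smul_zero]
  module

theorem qH : p2 (R x) = q P M 1 0 0 1 := by rw [← T.pm]; simp [q]

omit T in
theorem qP : P = q P M 0 1 0 0 := by simp [q]

omit T in
theorem qM : M = q P M 0 0 1 0 := by simp [q]

theorem qsl (a c d : K) : a • P + c • M + d • p2 (R x) = q P M d a c d := by
  rw [← T.pm, q]; module

include A

theorem Hne : p2 (R x) ≠ 0 := by
  intro h
  have h1 : Es (R x) ω ≠ ⊥ := fun e => by have := T.dW; rw [e, finrank_bot] at this; omega
  obtain ⟨w, hw, h0⟩ := Submodule.exists_mem_ne_zero_of_ne_bot h1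
  rw [End.mem_eigenspace_iff] at hw
  have h2 : p2 (R x) w = (ω + ω ^ 2) • w := by
    simp only [p2, LinearMap.add_apply, sq, End.mul_apply, hw, map_smul, smul_smul, add_smul]
  rw [h, show ω + ω ^ 2 = 1 by linear_combination A.om - A.two, one_smul] at h2
  exact h0 h2.symm

theorem q_zero {a b' c d : K} (h : q P M a b' c d = 0) : a = 0 ∧ b' = 0 ∧ c = 0 ∧ d = 0 := by
  have hP : P ≠ 0 := fun e => Hne A T (by rw [← T.pm, e]; simp)
  have k : ∀ a1 b1 a2 b2 e : K, q P M a1 b1 0 0 * q P M a b' c d * q P M 0 a2 0 b2 =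
      q P M 0 e 0 0 → e = 0 := by
    intro a1 b1 a2 b2 e he
    rw [h, mul_zero, zero_mul] at he
    simpa [q, hP] using he.symm
  exact ⟨k 1 0 1 0 _ (by simp [q_mul T]), k 1 0 0 1 _ (by simp [q_mul T]),
    k 0 1 1 0 _ (by simp [q_mul T]), k 0 1 0 1 _ (by simp [q_mul T])⟩

theorem q_inj {a b' c d a' b'' c' d' : K} (h : q P M a b' c d = q P M a' b'' c' d') :
    a = a' ∧ b' = b'' ∧ c = c' ∧ d = d' := by
  have := q_zero A T (a := a - a') (b' := b' - b'') (c := c - c') (d := d - d') (by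
    rw [← sub_eq_zero] at h
    rw [← h, q, q, q]; module)
  simpa only [sub_eq_zero] using this

theorem q_p1 (a b' c d : K) : q P M a b' c d * p1 (R x) = 0 ∧ p1 (R x) * q P M a b' c d = 0 := by
  have : p1 (R x) = 1 + q P M 1 0 0 1 := by rw [← qH T, p1, p2, add_assoc]
  rw [this, mul_add, add_mul, q_mul T, q_mul T]
  simp [aa A]

theorem one_u : (1 : End K V) = p1 (R x) + q P M 1 0 0 1 := by
  rw [← qH T, p1, p2, add_assoc 1, add_assoc, aa A, add_zero]

theorem p1p1 : p1 (R x) * p1 (R x) = p1 (R x) := by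
  have := congrArg (p1 (R x) * ·) (one_u A T)
  simp only [mul_one, mul_add (p1 (R x)) (p1 (R x)), (q_p1 A T _ _ _ _).2, add_zero] at this
  exact this.symm

theorem u_mul (a b' c d a' b'' c' d' : K) :
    (p1 (R x) + q P M a b' c d) * (p1 (R x) + q P M a' b'' c' d') = p1 (R x) +
    q P M (a * a' + b' * c') (a * b'' + b' * d') (c * a' + d * c') (c * b'' + d * d') := by
  rw [mul_add, add_mul (p1 (R x)), add_mul (p1 (R x)), p1p1 A T, (q_p1 A T _ _ _ _).1,
    (q_p1 A T _ _ _ _).2, q_mul T, add_zero, zero_add]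

theorem qu_mul (a b' c d a' b'' c' d' : K) :
    q P M a b' c d * (p1 (R x) + q P M a' b'' c' d') =
    q P M (a * a' + b' * c') (a * b'' + b' * d') (c * a' + d * c') (c * b'' + d * d') := by
  rw [mul_add, (q_p1 A T _ _ _ _).1, q_mul T, zero_add]

omit A in
theorem X_u : R x = p1 (R x) + q P M ω 0 0 (ω ^ 2) := by
  conv_lhs => rw [T.ex]
  simp only [p1, p2, q, zero_smul, add_zero, add_assoc]

theorem one_add_q (a b' c d : K) :
    1 + q P M a b' c d = p1 (R x) + q P M (1 + a) b' c (1 + d) := by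
  rw [one_u A T, q, q, q]; module

omit T A in
theorem q_smul (t a b' c d : K) : t • q P M a b' c d = q P M (t * a) (t * b') (t * c) (t * d) := by
  rw [q, q]; module

theorem PX : P * R x = ω ^ 2 • P := by
  have := qu_mul A T 0 1 0 0 ω 0 0 (ω ^ 2)
  rw [← X_u T, ← qP] at this
  simpa [q] using this

theorem MX : M * R x = ω • M := by
  have := qu_mul A T 0 0 1 0 ω 0 0 (ω ^ 2)
  rw [← X_u T, ← qM] at this
  simpa [q] using this

theorem p0 : P * p1 (R x) = 0 ∧ M * p1 (R x) = 0 :=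
  ⟨by have := (q_p1 A T 0 1 0 0).1; rwa [← qP] at this,
    by have := (q_p1 A T 0 0 1 0).1; rwa [← qM] at this⟩

theorem eigP {Y : End K V} (m : Y ∈ L) (k : Y * p1 (R x) = 0) (e : Y * R x = ω ^ 2 • Y) :
    ∃ a : K, Y = a • P := by
  obtain ⟨a, c, d, rfl⟩ := T.sl Y m k
  rw [qsl T] at e ⊢
  conv_lhs at e => rw [X_u T]
  rw [qu_mul A T, q_smul] at e
  obtain ⟨h1, -, h2, -⟩ := q_inj A T e
  rw [ww A (d := d) (by linear_combination h1), ww A (d := c) (by linear_combination h2)]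
  exact ⟨a, by simp [q]⟩

theorem eigM {Y : End K V} (m : Y ∈ L) (k : Y * p1 (R x) = 0) (e : Y * R x = ω • Y) :
    ∃ a : K, Y = a • M := by
  obtain ⟨a, c, d, rfl⟩ := T.sl Y m k
  rw [qsl T] at e ⊢
  conv_lhs at e => rw [X_u T]
  rw [qu_mul A T, q_smul] at e
  obtain ⟨-, h1, -, h2⟩ := q_inj A T e
  rw [ww A (d := d) (by linear_combination - h2), ww A (d := a) (by linear_combination - h1)]
  exact ⟨c, by simp [q]⟩

theorem smulP {a : K} (h : a • P = P) : a = 1 :=
  (q_inj A T (a := 0) (c := 0) (d := 0) (a' := 0) (b' := a) (b'' := 1) (c' := 0) (d' := 0)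
    (by simpa [q] using h)).2.1

theorem smulM {a : K} (h : a • M = M) : a = 1 :=
  (q_inj A T (a := 0) (c := a) (d := 0) (a' := 0) (b' := 0) (b'' := 0) (c' := 1) (d' := 0)
    (by simpa [q] using h)).2.2.1

omit A T in
theorem X3 (h : x ^ 3 = 1) : R x ^ 3 = 1 := by rw [← map_pow, h, map_one]

omit A T in
theorem Xi (h : x ^ 3 = 1) : R x⁻¹ = R x ^ 2 := by
  rw [← map_pow, inv_eq_of_mul_eq_one_right (show x * x ^ 2 = 1 by rw [← pow_succ', h])]

omit A T in
theorem p2_sq (h : x ^ 3 = 1) : p2 (R x ^ 2) = p2 (R x) := by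
  rw [p2, p2, ← pow_mul, show 2 * 2 = 3 + 1 from rfl, pow_succ (R x) 3, X3 h, one_mul, add_comm]

omit A T in
theorem p1_sq (h : x ^ 3 = 1) : p1 (R x ^ 2) = p1 (R x) := by
  have := p2_sq (R := R) h
  rw [p1, p1, add_assoc, add_assoc]
  exact congrArg (1 + ·) this

theorem tau (e : τ * τ = 1) (i : τ * x * τ⁻¹ = x⁻¹) : ∃ k k' : K, k * k' = 1 ∧
    ∀ s t : K, cj R τ (p1 (R x) + q P M 0 s t 0) = p1 (R x) + q P M 0 (t * k') (s * k) 0 := by
  have hX : cj R τ (R x) = R x ^ 2 := by rw [cj_R, i, Xi T.x3]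
  have h1 : cj R τ (p1 (R x)) = p1 (R x) := by rw [cj_p1, hX, p1_sq T.x3]
  have h4 : ∀ (Y : End K V) (a : K), Y * R x = a • Y → cj R τ Y * R x = a ^ 2 • cj R τ Y := by
    intro Y a h
    have h2 := congrArg (cj R τ) h
    rw [map_mul, map_smul, hX] at h2
    have : R x = R x ^ 2 * R x ^ 2 := by
      rw [← pow_add, show 2 + 2 = 3 + 1 from rfl, pow_succ (R x) 3, X3 T.x3, one_mul]
    rw [this, ← mul_assoc, h2, smul_mul_assoc, h2, smul_smul, sq]
  obtain ⟨k, hk⟩ := eigM A T (Y := cj R τ P) (A.cj τ P T.pL)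
    (by rw [← h1, ← map_mul, (p0 A T).1, map_zero])
    (by rw [h4 P _ (PX A T), show (ω ^ 2) ^ 2 = ω by linear_combination ω * w3 A])
  obtain ⟨k', hk'⟩ := eigP A T (Y := cj R τ M) (A.cj τ M T.mL)
    (by rw [← h1, ← map_mul, (p0 A T).2, map_zero]) (h4 M _ (MX A T))
  refine ⟨k, k', smulP A T ?_, fun s t => ?_⟩
  · rw [← smul_smul, ← hk', ← map_smul, ← hk, cj_cj, e, cj_one]
  · simp only [q, zero_smul, zero_add, add_zero, map_add, map_smul, h1, hk, hk', smul_smul]
    rw [add_comm ((s * k) • M)]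

theorem form' (h : Si L (R x) S) : ∃ t : K, t ≠ 0 ∧ S = p1 (R x) + q P M 0 t t⁻¹ 0 := by
  obtain ⟨a, c, d, e⟩ := T.sl _ h.mem h.kl
  have e1 : S = p1 (R x) + q P M (1 + d) a c (1 + d) := by
    rw [← one_add_q A T, ← qsl T, ← e, add_comm S, ← add_assoc, aa A, zero_add]
  have h1 := h.inv
  have h2 := h.sq
  have e2 := X_u T
  generalize hp : p1 (R x) = p at e1 e2
  rw [sq, e1, e2, ← hp, u_mul A T, u_mul A T, u_mul A T, add_right_inj] at h1
  have h3 : 1 + d = 0 := ww A (by linear_combination (q_inj A T h1).1)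
  rw [h3] at e1
  rw [e1, one_u A T, ← hp, u_mul A T, add_right_inj] at h2
  have h4 : a * c = 1 := by linear_combination (q_inj A T h2).1
  exact ⟨a, left_ne_zero_of_mul_eq_one h4, by rw [e1, eq_inv_of_mul_eq_one_right h4]⟩

theorem si_u {t : K} (ht : t ≠ 0) : Si L (R x) (p1 (R x) + q P M 0 t t⁻¹ 0) := by
  have e : p1 (R x) + q P M 0 t t⁻¹ 0 + 1 = q P M 1 t t⁻¹ 1 := by
    have := one_add_q A T 1 t t⁻¹ 1
    rw [aa A (1 : K)] at this
    rw [← this, add_comm, ← add_assoc, aa A, zero_add]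
  refine ⟨?_, ?_, ?_, ?_⟩
  · rw [e, ← qsl T]
    exact add_mem (add_mem (L.smul_mem _ T.pL) (L.smul_mem _ T.mL)) (L.smul_mem _ T.hL)
  · rw [e, (q_p1 A T _ _ _ _).1]
  · have e2 := X_u T
    generalize hp : p1 (R x) = p at e2
    rw [sq, e2, ← hp, u_mul A T, u_mul A T, u_mul A T]
    congr 2
    · ring
    · ring
    · linear_combination (- t⁻¹ * ω) * w3 A
    · ring
  · rw [u_mul A T, one_u A T]
    congr 2 <;> simp [ht]

theorem uP (t : K) : 1 + t • P = p1 (R x) + q P M 1 t 0 1 := by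
  have := one_add_q A T 0 t 0 0
  simpa [q] using this

theorem uM (t : K) : 1 + t • M = p1 (R x) + q P M 1 0 t 1 := by
  have := one_add_q A T 0 0 t 0
  simpa [q] using this

end
end GS

open GS

theorem Cs.mul {y : End K V} (h : Cs L y f) (k : Cs L y f') : Cs L y (f * f') :=
  fun Y m e => (h Y m e).mul_left (k Y m e)

theorem Cs.inv {y : End K V} (h : Cs L y (R g)) : Cs L y (R g⁻¹) := fun Y m e => by
  have := cj_eq_iff.2 (h Y m e)
  rw [← cj_eq_iff]
  conv_lhs => rw [← this, cj_cj, inv_mul_cancel, cj_one]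

theorem Cs.conj (A : Amb R L b ω) (h : Cs L (R x) f) (g : G) :
    Cs L (R (g * x * g⁻¹)) (R g * f * R g⁻¹) := fun Y m e => by
  have h1 : cj R g (cj R g⁻¹ Y) = Y := by rw [cj_cj, mul_inv_cancel, cj_one]
  have h2 := h (cj R g⁻¹ Y) (A.cj _ Y m) (by
    have := congrArg (cj R g⁻¹) e
    rwa [← cj_R, ← cj_p1, map_mul, cj_cj, inv_mul_cancel, cj_one, map_zero] at this)
  have h3 := h2.map (cj R g)
  rwa [h1] at h3

theorem Si.conj (A : Amb R L b ω) (h : Si L (R x) S) (g : G) :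
    Si L (R (g * x * g⁻¹)) (R g * S * R g⁻¹) := by
  rw [← cj_R, ← cj_apply]
  have e : cj R g S + 1 = cj R g (S + 1) := by rw [map_add, map_one]
  refine ⟨e ▸ A.cj g _ h.mem, ?_, ?_, ?_⟩
  · rw [e, ← cj_p1, ← map_mul, h.kl, map_zero]
  · rw [← map_mul, h.inv, map_mul, map_pow]
  · rw [← map_mul, h.sq, map_one]

theorem Si.symm (T : x ^ 3 = 1) (h : Si L (R x) S) : Si L (R x⁻¹) S := by
  rw [Xi T]
  refine ⟨h.mem, by rw [p1_sq T, h.kl], ?_, h.sq⟩
  rw [pow_two (R x ^ 2), mul_assoc, ← h.inv, ← mul_assoc, ← h.inv, pow_two, mul_assoc]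

theorem Tri.p0 (A : Amb R L b ω) (T : Tri R L b ω x P M) : P * p1 (R x) = 0 ∧ M * p1 (R x) = 0 :=
  GS.p0 A T

theorem Tri.cm (A : Amb R L b ω) (T : Tri R L b ω x P M) (h : Cs L (R x) f) : Commute f (R x) := by
  have hP := h P T.pL (T.p0 A).1
  have hM := h M T.mL (T.p0 A).2
  rw [T.ex, ← T.pm]
  exact (((Commute.one_right f).add_right ((hP.mul_right hM).add_right (hM.mul_right hP))).add_right
    ((hP.mul_right hM).smul_right _)).add_right ((hM.mul_right hP).smul_right _)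

theorem Tri.two (A : Amb R L b ω) (T : Tri R L b ω x P M) (h : Commute g x) (e : g * g = 1) :
    Cs L (R x) (R g) := by
  have hX : cj R g (R x) = R x := cj_eq_iff.2 (h.map R)
  have h1 : cj R g (p1 (R x)) = p1 (R x) := by rw [cj_p1, hX]
  have h2 : ∀ (Y : End K V) (a : K), cj R g Y = a • Y → (a * a) • Y = Y := fun Y a k => by
    rw [← smul_smul, ← k, ← map_smul, ← k, cj_cj, e, cj_one]
  obtain ⟨a, ha⟩ := eigP A T (Y := cj R g P) (A.cj g P T.pL)
    (by rw [← h1, ← map_mul, (T.p0 A).1, map_zero]) (by rw [← hX, ← map_mul, PX A T, map_smul])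
  obtain ⟨a', ha'⟩ := eigM A T (Y := cj R g M) (A.cj g M T.mL)
    (by rw [← h1, ← map_mul, (T.p0 A).2, map_zero]) (by rw [← hX, ← map_mul, MX A T, map_smul])
  rw [sq_inj A ((smulP A T (h2 P a ha)).trans (mul_one 1).symm), one_smul] at ha
  rw [sq_inj A ((smulM A T (h2 M a' ha')).trans (mul_one 1).symm), one_smul] at ha'
  intro Y m k
  obtain ⟨a, c, d, rfl⟩ := T.sl Y m k
  rw [← cj_eq_iff, map_add, map_add, map_smul, map_smul, map_smul, ha, ha', cj_p2, hX]

theorem Tri.form (A : Amb R L b ω) (T : Tri R L b ω x P M) (h : Si L (R x) S) :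
    ∃ t : K, t ≠ 0 ∧ S = 1 + p2 (R x) + t • P + t⁻¹ • M := by
  obtain ⟨t, ht, e⟩ := form' A T h
  exact ⟨t, ht, by rw [e]; simp only [p1, p2, q, zero_smul, add_zero, zero_add, add_assoc]⟩

theorem Tri.si_ex [IsAlgClosed K] (A : Amb R L b ω) (T : Tri R L b ω x P M) (e : τ * τ = 1)
    (i : τ * x * τ⁻¹ = x⁻¹) : ∃ s : G, Si L (R x) (R s) ∧ Commute s τ := by
  obtain ⟨k, k', hk, h⟩ := tau A T e i
  obtain ⟨t, ht⟩ := IsAlgClosed.exists_eq_mul_self k'
  have t0 : t ≠ 0 := by
    rintro rfl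
    simp [ht] at hk
  obtain ⟨g1, h1⟩ := T.pg t
  obtain ⟨g2, h2⟩ := T.mg t⁻¹
  have h3 : R (g1 * g2 * g1) = p1 (R x) + q P M 0 t t⁻¹ 0 := by
    rw [map_mul, map_mul, h1, h2, uP A T, uM A T, u_mul A T, u_mul A T]
    have h5 : t * t⁻¹ = 1 := mul_inv_cancel₀ t0
    congr 2
    · linear_combination h5 + A.two
    · linear_combination t * h5 + t * A.two
    · ring
    · linear_combination h5 + A.two
  refine ⟨g1 * g2 * g1, h3 ▸ si_u A T t0, Commute.symm (A.inj ?_)⟩
  rw [R.map_mul τ, R.map_mul _ τ]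
  refine cj_eq_iff.1 ?_
  rw [h3, h, ht, inv_mul_cancel_left₀ t0,
    eq_inv_of_mul_eq_one_left (show t * k * t = 1 by rw [← hk, ht]; ring)]

theorem Tri.si_uq (A : Amb R L b ω) (T : Tri R L b ω x P M) (e : τ * τ = 1)
    (i : τ * x * τ⁻¹ = x⁻¹) (h : Si L (R x) S) (h' : Si L (R x) S') (k : Commute S (R τ))
    (k' : Commute S' (R τ)) : S = S' := by
  obtain ⟨a, a', -, hc⟩ := tau A T e i
  have key : ∀ t : K, t ≠ 0 → Commute (p1 (R x) + q P M 0 t t⁻¹ 0) (R τ) → t * t = a' := by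
    intro t ht c
    have := cj_eq_iff.2 c.symm
    rw [hc, add_right_inj] at this
    have h1 := (q_inj A T this).2.1
    rw [inv_mul_eq_iff_eq_mul₀ ht] at h1
    exact h1.symm
  obtain ⟨t, ht, rfl⟩ := form' A T h
  obtain ⟨t', ht', rfl⟩ := form' A T h'
  rw [sq_inj A ((key t ht k).trans (key t' ht' k').symm)]

theorem Tri.root (A : Amb R L b ω) (T : Tri R L b ω x P M) (h : Si L (R x) S) (a : K) :
    ∃ g, R g = 1 + a • (S + 1) := by
  obtain ⟨t, ht, rfl⟩ := form' A T h
  obtain ⟨g1, h1⟩ := T.pg (a * t)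
  obtain ⟨g2, h2⟩ := T.mg t⁻¹
  refine ⟨g2 * g1 * g2, ?_⟩
  have e : p1 (R x) + q P M 0 t t⁻¹ 0 + 1 = q P M 1 t t⁻¹ 1 := by
    have := one_add_q A T 1 t t⁻¹ 1
    rw [aa A (1 : K)] at this
    rw [← this, add_comm, ← add_assoc, aa A, zero_add]
  rw [map_mul, map_mul, h1, h2, uP A T, uM A T, u_mul A T, u_mul A T, e, q_smul, one_add_q A T]
  have h5 : t * t⁻¹ = 1 := mul_inv_cancel₀ ht
  congr 2
  · linear_combination a * h5
  · ring
  · linear_combination (a * t⁻¹) * h5 + t⁻¹ * A.two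
  · linear_combination a * h5

theorem Tri.fro {X : Type*} [Group X] {ι : X →* G} {φ : V →+ V} (A : Amb R L b ω)
    (F : Fro R L ι φ) {u t : X} (T : Tri R L b ω (ι u) P M) (e : t * t = 1)
    (i : t * u * t⁻¹ = u⁻¹) {s : G} (h : Si L (R (ι u)) (R s)) (k : Commute s (ι t)) :
    s ∈ ι.range := by
  obtain ⟨Y, hY, hφ⟩ := F.li _ h.mem
  have ext : ∀ f f' : End K V, (∀ v, f (φ v) = f' (φ v)) → f = f' := fun f f' h =>
    LinearMap.ext fun w => by obtain ⟨v, rfl⟩ := F.bij.2 w; exact h v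
  have hS : ∀ v, (Y + 1) (φ v) = φ (R s v) := fun v => by
    rw [LinearMap.add_apply, ← hφ, LinearMap.add_apply, map_add, End.one_apply, End.one_apply,
      add_assoc, aa A, add_zero]
  have hp : ∀ v, p1 (R (ι u)) (φ v) = φ (p1 (R (ι u)) v) := fun v => by
    simp only [p1, sq, LinearMap.add_apply, End.mul_apply, End.one_apply, map_add, F.cm]
  have e1 : Y + 1 + 1 = Y := by rw [add_assoc, aa A, add_zero]
  have h' : Si L (R (ι u)) (Y + 1) := by
    refine ⟨by rwa [e1], ext _ _ fun v => ?_, ext _ _ fun v => ?_, ext _ _ fun v => ?_⟩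
    · rw [e1, End.mul_apply, hp, ← hφ, ← End.mul_apply, h.kl]; simp
    · rw [End.mul_apply, ← F.cm, hS, ← End.mul_apply, h.inv]
      simp only [sq, End.mul_apply, F.cm, hS]
    · rw [End.mul_apply, hS, hS, ← End.mul_apply, h.sq]; rfl
  have k' : Commute (Y + 1) (R (ι t)) := ext _ _ fun v => by
    rw [End.mul_apply, ← F.cm, hS, ← End.mul_apply, (k.map R).eq]
    simp only [End.mul_apply, F.cm, hS]
  have := T.si_uq A (τ := ι t) (by rw [← map_mul, e, map_one])
    (by rw [← map_inv, ← map_mul, ← map_mul, i, map_inv]) h h' (k.map R) k'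
  exact F.fx s fun v => by rw [← hS, ← this]

theorem Tri.sl2 (A : Amb R L b ω) (T : Tri R L b ω x P M) (T' : Tri R L b ω c P' M')
    (h : Cs L (R c) (R x)) {Y : End K V} (m : Y ∈ L) (e : Y * p1 (R c) = 0) : Cs L (R x) Y := by
  have key : ∀ N : End K V, N * N = 0 → (∃ g, R g = 1 + (1 : K) • N) → Commute (R x) N →
      Cs L (R x) N := by
    rintro N n ⟨g, hg⟩ k Z hZ hz
    rw [one_smul] at hg
    have h1 := T.two A (g := g) (A.inj (by
      rw [map_mul, map_mul, hg]; exact ((Commute.one_right _).add_right k).symm))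
      (A.inj (by rw [map_mul, hg, map_one, mul_add, add_mul, add_mul, n, mul_one, mul_one, one_mul,
        add_zero, add_assoc, aa A, add_zero])) Z hZ hz
    rw [hg] at h1
    simpa using h1.sub_left (Commute.one_left Z)
  have hP := key P' T'.pp (T'.pg 1) (h P' T'.pL (T'.p0 A).1)
  have hM := key M' T'.mm (T'.mg 1) (h M' T'.mL (T'.p0 A).2)
  obtain ⟨a, c', d, rfl⟩ := T'.sl Y m e
  intro Z hZ hz
  have h1 := hP Z hZ hz
  have h2 := hM Z hZ hz
  rw [← T'.pm]
  exact ((h1.smul_left _).add_left (h2.smul_left _)).add_left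
    (((h1.mul_left h2).add_left (h2.mul_left h1)).smul_left _)

end CF.Ao.Gp
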