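import Cfsg.Agent.Ao.GA

/-! Identities in the Temperley-Lieb algebra on four generators in characteristic two. -/

set_option autoImplicit false
set_option linter.unusedSimpArgs false
set_option linter.unusedSectionVars false

namespace CF.Ao.Gp

open Module

namespace GT2

variable {K A : Type*} [Field K] [Ring A] [Algebra K A] {ω : K}

theorem ext {a c : A} (h : ∀ x, a * x = c * x) : a = c := by
  simpa using h 1

theorem step (h2 : (2 : K) = 0) (Γ : Submonoid A) {n y z : A} (q : n * n = 0)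
    (t : K) (hn : 1 + t • n ∈ Γ) (hy : 1 + y ∈ Γ)
    (e : ∀ x, z * x = (1 + t • n) * y * (1 + t • n) * x) : 1 + z ∈ Γ := by
  have e1 : (1 + t • n) * (1 + t • n) = 1 := by
    simp only [mul_add, add_mul, smul_mul_assoc, mul_smul_comm, one_mul, mul_one, q, smul_zero,
      add_zero]
    match_scalars <;> grind
  have := Γ.mul_mem (Γ.mul_mem hn hy) hn
  rwa [mul_add (1 + t • n) 1 y, add_mul, mul_one, e1, ← ext e] at this

/-- The rewriting rules. -/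
structure Rw (n1 n2 n3 n4 : A) : Prop where
  a1 : ∀ x, n1 * (n1 * x) = 0
  a2 : ∀ x, n2 * (n2 * x) = 0
  a3 : ∀ x, n3 * (n3 * x) = 0
  a4 : ∀ x, n4 * (n4 * x) = 0
  b12 : ∀ x, n1 * (n2 * (n1 * x)) = n1 * x
  b21 : ∀ x, n2 * (n1 * (n2 * x)) = n2 * x
  b23 : ∀ x, n2 * (n3 * (n2 * x)) = n2 * x
  b32 : ∀ x, n3 * (n2 * (n3 * x)) = n3 * x
  b34 : ∀ x, n3 * (n4 * (n3 * x)) = n3 * x
  b43 : ∀ x, n4 * (n3 * (n4 * x)) = n4 * x
  d13 : ∀ x, n3 * (n1 * x) = n1 * (n3 * x)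
  d14 : ∀ x, n4 * (n1 * x) = n1 * (n4 * x)
  d24 : ∀ x, n4 * (n2 * x) = n2 * (n4 * x)

namespace Rw

variable {n1 n2 n3 n4 : A} (r : Rw n1 n2 n3 n4)
include r

theorem e1 (x : A) : n3 * (n2 * (n1 * (n3 * x))) = n1 * (n3 * x) := by rw [← r.d13, r.b32]
theorem e2 (x : A) : n4 * (n3 * (n2 * (n4 * x))) = n2 * (n4 * x) := by rw [← r.d24, r.b43]
theorem e3 (x : A) : n1 * (n3 * (n2 * (n1 * x))) = n1 * (n3 * x) := by
  rw [← r.d13, r.b12, r.d13]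
theorem e4 (x : A) : n1 * (n4 * (n3 * (n2 * (n1 * x)))) = n1 * (n4 * (n3 * x)) := by
  rw [← r.d14, r.e3, r.d14]
theorem e5 (x : A) : n2 * (n4 * (n3 * (n2 * x))) = n2 * (n4 * x) := by
  rw [← r.d24, r.b23, r.d24]
theorem e6 (x : A) : n4 * (n3 * (n2 * (n1 * (n4 * x)))) = n2 * (n1 * (n4 * x)) := by
  rw [← r.d14, r.e2]

variable (h2 : (2 : K) = 0) (om : ω ^ 2 + ω + 1 = 0)
include h2 om

theorem s1 (x : A) : (n1 + n2 + n1 * n2 + n2 * n1) * x =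
    (1 + (1 : K) • n2) * (n1) * (1 + (1 : K) • n2) * x := by
  simp only [mul_add, add_mul, smul_mul_assoc, mul_smul_comm, mul_assoc, one_mul,
    r.a1, r.a2, r.a3, r.a4, r.b12, r.b21, r.b23, r.b32, r.b34, r.b43, r.d13, r.d14, r.d24,
    r.e1, r.e2, r.e3, r.e4, r.e5, r.e6, mul_zero, smul_zero, add_zero, zero_add]
  match_scalars <;> grind

theorem s2 (x : A) : (n1 + n2 + ω ^ 2 • (n3) + n1 * n2 + n2 * n1 + ω • (n2 * n3) + ω • (n3 * n2) + ω • (n1 * n2 * n3) + ω • (n1 * n3 * n2) + ω • (n2 * n1 * n3) + ω • (n3 * n2 * n1)) * x =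
    (1 + ω • n3) * (n1 + n2 + n1 * n2 + n2 * n1) * (1 + ω • n3) * x := by
  simp only [mul_add, add_mul, smul_mul_assoc, mul_smul_comm, mul_assoc, one_mul,
    r.a1, r.a2, r.a3, r.a4, r.b12, r.b21, r.b23, r.b32, r.b34, r.b43, r.d13, r.d14, r.d24,
    r.e1, r.e2, r.e3, r.e4, r.e5, r.e6, mul_zero, smul_zero, add_zero, zero_add]
  match_scalars <;> grind

theorem s3 (x : A) : (n1 + ω ^ 2 • (n3) + ω • (n1 * n2 * n3) + ω • (n1 * n3 * n2) + ω • (n2 * n1 * n3) + ω • (n3 * n2 * n1)) * x =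
    (1 + ω • n2) * (n1 + n2 + ω ^ 2 • (n3) + n1 * n2 + n2 * n1 + ω • (n2 * n3) + ω • (n3 * n2) + ω • (n1 * n2 * n3) + ω • (n1 * n3 * n2) + ω • (n2 * n1 * n3) + ω • (n3 * n2 * n1)) * (1 + ω • n2) * x := by
  simp only [mul_add, add_mul, smul_mul_assoc, mul_smul_comm, mul_assoc, one_mul,
    r.a1, r.a2, r.a3, r.a4, r.b12, r.b21, r.b23, r.b32, r.b34, r.b43, r.d13, r.d14, r.d24,
    r.e1, r.e2, r.e3, r.e4, r.e5, r.e6, mul_zero, smul_zero, add_zero, zero_add]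
  match_scalars <;> grind

theorem s4 (x : A) : (n1 + ω ^ 2 • (n3) + n4 + ω • (n3 * n4) + ω • (n4 * n3) + ω • (n1 * n2 * n3) + ω • (n1 * n3 * n2) + ω • (n2 * n1 * n3) + ω • (n3 * n2 * n1) + n1 * n2 * n3 * n4 + n1 * n2 * n4 * n3 + n1 * n3 * n2 * n4 + n1 * n4 * n3 * n2 + n2 * n1 * n3 * n4 + n2 * n1 * n4 * n3 + n3 * n2 * n1 * n4 + n4 * n3 * n2 * n1) * x =
    (1 + (ω ^ 2) • n4) * (n1 + ω ^ 2 • (n3) + ω • (n1 * n2 * n3) + ω • (n1 * n3 * n2) + ω • (n2 * n1 * n3) + ω • (n3 * n2 * n1)) * (1 + (ω ^ 2) • n4) * x := by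
  simp only [mul_add, add_mul, smul_mul_assoc, mul_smul_comm, mul_assoc, one_mul,
    r.a1, r.a2, r.a3, r.a4, r.b12, r.b21, r.b23, r.b32, r.b34, r.b43, r.d13, r.d14, r.d24,
    r.e1, r.e2, r.e3, r.e4, r.e5, r.e6, mul_zero, smul_zero, add_zero, zero_add]
  match_scalars <;> grind

theorem s5 (x : A) : (n1 + n3 + n4 + n3 * n4 + n4 * n3 + n1 * n2 * n3 + n1 * n3 * n2 + n2 * n1 * n3 + n3 * n2 * n1 + n1 * n2 * n3 * n4 + n1 * n2 * n4 * n3 + n1 * n3 * n2 * n4 + n1 * n4 * n3 * n2 + n2 * n1 * n3 * n4 + n2 * n1 * n4 * n3 + n3 * n2 * n1 * n4 + n4 * n3 * n2 * n1) * x =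
    (1 + (ω ^ 2) • n3) * (n1 + ω ^ 2 • (n3) + n4 + ω • (n3 * n4) + ω • (n4 * n3) + ω • (n1 * n2 * n3) + ω • (n1 * n3 * n2) + ω • (n2 * n1 * n3) + ω • (n3 * n2 * n1) + n1 * n2 * n3 * n4 + n1 * n2 * n4 * n3 + n1 * n3 * n2 * n4 + n1 * n4 * n3 * n2 + n2 * n1 * n3 * n4 + n2 * n1 * n4 * n3 + n3 * n2 * n1 * n4 + n4 * n3 * n2 * n1) * (1 + (ω ^ 2) • n3) * x := by
  simp only [mul_add, add_mul, smul_mul_assoc, mul_smul_comm, mul_assoc, one_mul,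
    r.a1, r.a2, r.a3, r.a4, r.b12, r.b21, r.b23, r.b32, r.b34, r.b43, r.d13, r.d14, r.d24,
    r.e1, r.e2, r.e3, r.e4, r.e5, r.e6, mul_zero, smul_zero, add_zero, zero_add]
  match_scalars <;> grind

theorem s6 (x : A) : (n1 + n3 + n1 * n2 * n3 + n1 * n3 * n2 + n2 * n1 * n3 + n3 * n2 * n1) * x =
    (1 + (1 : K) • n4) * (n1 + n3 + n4 + n3 * n4 + n4 * n3 + n1 * n2 * n3 + n1 * n3 * n2 + n2 * n1 * n3 + n3 * n2 * n1 + n1 * n2 * n3 * n4 + n1 * n2 * n4 * n3 + n1 * n3 * n2 * n4 + n1 * n4 * n3 * n2 + n2 * n1 * n3 * n4 + n2 * n1 * n4 * n3 + n3 * n2 * n1 * n4 + n4 * n3 * n2 * n1) * (1 + (1 : K) • n4) * x := by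
  simp only [mul_add, add_mul, smul_mul_assoc, mul_smul_comm, mul_assoc, one_mul,
    r.a1, r.a2, r.a3, r.a4, r.b12, r.b21, r.b23, r.b32, r.b34, r.b43, r.d13, r.d14, r.d24,
    r.e1, r.e2, r.e3, r.e4, r.e5, r.e6, mul_zero, smul_zero, add_zero, zero_add]
  match_scalars <;> grind

theorem m0 (x : A) : (n1 + n3 + (n1 * (n2 * n3 + n3 * n2) + (n2 * n3 + n3 * n2) * n1)) * x =
    (n1 + n3 + n1 * n2 * n3 + n1 * n3 * n2 + n2 * n1 * n3 + n3 * n2 * n1) * x := by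
  simp only [mul_add, add_mul, mul_assoc,
    r.a1, r.a2, r.a3, r.a4, r.b12, r.b21, r.b23, r.b32, r.b34, r.b43, r.d13, r.d14, r.d24,
    r.e1, r.e2, r.e3, r.e4, r.e5, r.e6, mul_zero, add_zero, zero_add]
  abel

theorem m4 (x : A) : (1 : K) • (n4 * x) = n4 * (n1 + n3 + n1 * n2 * n3 + n1 * n3 * n2 + n2 * n1 * n3 + n3 * n2 * n1) * n4 * x := by
  simp only [mul_add, add_mul, mul_assoc,
    r.a1, r.a2, r.a3, r.a4, r.b12, r.b21, r.b23, r.b32, r.b34, r.b43, r.d13, r.d14, r.d24,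
    r.e1, r.e2, r.e3, r.e4, r.e5, r.e6, mul_zero, add_zero, zero_add]
  match_scalars <;> grind

theorem m1 (x : A) : (1 : K) • ((n1 + n3 + n1 * n2 * n3 + n1 * n3 * n2 + n2 * n1 * n3 + n3 * n2 * n1) * n1 * x) =
    n1 * (n1 + n3 + n1 * n2 * n3 + n1 * n3 * n2 + n2 * n1 * n3 + n3 * n2 * n1) * x := by
  simp only [mul_add, add_mul, mul_assoc,
    r.a1, r.a2, r.a3, r.a4, r.b12, r.b21, r.b23, r.b32, r.b34, r.b43, r.d13, r.d14, r.d24,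
    r.e1, r.e2, r.e3, r.e4, r.e5, r.e6, mul_zero, add_zero, zero_add]
  match_scalars <;> grind

theorem m2 (x : A) : (1 : K) • ((n1 + n3 + n1 * n2 * n3 + n1 * n3 * n2 + n2 * n1 * n3 + n3 * n2 * n1) * n2 * x) =
    n2 * (n1 + n3 + n1 * n2 * n3 + n1 * n3 * n2 + n2 * n1 * n3 + n3 * n2 * n1) * x := by
  simp only [mul_add, add_mul, mul_assoc,
    r.a1, r.a2, r.a3, r.a4, r.b12, r.b21, r.b23, r.b32, r.b34, r.b43, r.d13, r.d14, r.d24,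
    r.e1, r.e2, r.e3, r.e4, r.e5, r.e6, mul_zero, add_zero, zero_add]
  match_scalars <;> grind

theorem m3 (x : A) : (1 : K) • ((n1 + n3 + n1 * n2 * n3 + n1 * n3 * n2 + n2 * n1 * n3 + n3 * n2 * n1) * n3 * x) =
    n3 * (n1 + n3 + n1 * n2 * n3 + n1 * n3 * n2 + n2 * n1 * n3 + n3 * n2 * n1) * x := by
  simp only [mul_add, add_mul, mul_assoc,
    r.a1, r.a2, r.a3, r.a4, r.b12, r.b21, r.b23, r.b32, r.b34, r.b43, r.d13, r.d14, r.d24,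
    r.e1, r.e2, r.e3, r.e4, r.e5, r.e6, mul_zero, add_zero, zero_add]
  match_scalars <;> grind

end Rw

end GT2

variable {K V : Type*} [Field K] [AddCommGroup V] [Module K V] {ω : K}

theorem mw (h2 : (2 : K) = 0) (om : ω ^ 2 + ω + 1 = 0) {n1 n2 n3 n4 : End K V} (q1 : n1 * n1 = 0)
    (q2 : n2 * n2 = 0) (q3 : n3 * n3 = 0) (q4 : n4 * n4 = 0) (t12 : n1 * n2 * n1 = n1)
    (t21 : n2 * n1 * n2 = n2) (t23 : n2 * n3 * n2 = n2) (t32 : n3 * n2 * n3 = n3) (t34 : n3 * n4 * n3 = n3)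
    (t43 : n4 * n3 * n4 = n4) (c13 : Commute n1 n3) (c14 : Commute n1 n4) (c24 : Commute n2 n4)
    (Γ : Submonoid (End K V)) (h : ∀ t : K, 1 + t • n1 ∈ Γ ∧ 1 + t • n2 ∈ Γ ∧ 1 + t • n3 ∈ Γ ∧ 1 + t • n4 ∈ Γ) :
    1 + Mw n1 n2 n3 ∈ Γ ∧ (Mw n1 n2 n3 = 0 → n1 = 0) ∧ Commute (Mw n1 n2 n3) n1 ∧
      Commute (Mw n1 n2 n3) n2 ∧ Commute (Mw n1 n2 n3) n3 := by
  have sq : ∀ {n : End K V}, n * n = 0 → ∀ x, n * (n * x) = 0 := fun q x => by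
    rw [← mul_assoc, q, zero_mul]
  have tr : ∀ {n m : End K V}, n * m * n = n → ∀ x, n * (m * (n * x)) = n * x := fun q x => by
    rw [← mul_assoc, ← mul_assoc, q]
  have cm : ∀ {n m : End K V}, Commute n m → ∀ x, m * (n * x) = n * (m * x) := fun q x => by
    rw [← mul_assoc, ← mul_assoc, q.eq]
  have r : GT2.Rw n1 n2 n3 n4 := ⟨sq q1, sq q2, sq q3, sq q4, tr t12, tr t21, tr t23, tr t32,
    tr t34, tr t43, cm c13, cm c14, cm c24⟩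
  have s0 : 1 + n1 ∈ Γ := by simpa using (h 1).1
  have s1 := GT2.step h2 Γ q2 (1 : K) (h _).2.1 s0 (r.s1 h2 om)
  have s2 := GT2.step h2 Γ q3 ω (h _).2.2.1 s1 (r.s2 h2 om)
  have s3 := GT2.step h2 Γ q2 ω (h _).2.1 s2 (r.s3 h2 om)
  have s4 := GT2.step h2 Γ q4 (ω ^ 2) (h _).2.2.2 s3 (r.s4 h2 om)
  have s5 := GT2.step h2 Γ q3 (ω ^ 2) (h _).2.2.1 s4 (r.s5 h2 om)
  have s6 := GT2.step h2 Γ q4 (1 : K) (h _).2.2.2 s5 (r.s6 h2 om)
  rw [show Mw n1 n2 n3 = _ from GT2.ext (r.m0 h2 om)]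
  refine ⟨s6, fun e => ?_, GT2.ext fun x => (one_smul K _).symm.trans (r.m1 h2 om x),
    GT2.ext fun x => (one_smul K _).symm.trans (r.m2 h2 om x),
    GT2.ext fun x => (one_smul K _).symm.trans (r.m3 h2 om x)⟩
  have e4 := r.m4 h2 om 1
  rw [e, mul_zero, zero_mul, zero_mul, mul_one, one_smul] at e4
  rw [e4, mul_zero, zero_mul] at t34
  rw [← t34, mul_zero, zero_mul] at t23
  rw [← t23, mul_zero, zero_mul] at t12
  exact t12.symm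

end CF.Ao.Gp
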