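import Cfsg.Agent.Ao.GA
import Cfsg.Agent.Al.G

/-! Modules of dimension twelve for symmetric groups: the small case. -/

set_option autoImplicit false
set_option linter.unusedSectionVars false

namespace CF.Ao.Gp

open Module Function Equiv Equiv.Perm CF.E83 CF.Al LinearMap

variable {K V : Type*} [Field K] [AddCommGroup V] [Module K V] [FiniteDimensional K V]
  {Ω : Type*} [Fintype Ω] [DecidableEq Ω] {ρ : Perm Ω →* End K V} {B : V →ₗ[K] V →ₗ[K] K}

namespace GW1

theorem ct {n : ℕ} (e : Fin n ↪ Ω) (g : Perm (Fin n)) :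
    (viaEmbeddingHom e g).cycleType = g.cycleType := by
  rw [viaEmbeddingHom_apply, viaEmbedding]
  exact @cycleType_extendDomain _ _ _ _ _ _ _ (fun _ => Classical.propDecidable _) _ _

theorem sg {n : ℕ} (e : Fin n ↪ Ω) (g : Perm (Fin n)) : sign (viaEmbeddingHom e g) = sign g := by
  rw [sign_of_cycleType, sign_of_cycleType, ct]

theorem sw {n : ℕ} (e : Fin n ↪ Ω) (i j : Fin n) :
    viaEmbeddingHom e (swap i j) = swap (e i) (e j) := by
  ext x
  by_cases h : x ∈ Set.range e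
  · obtain ⟨k, rfl⟩ := h
    rw [viaEmbeddingHom_apply, viaEmbedding_apply, e.injective.swap_apply]
  · rw [viaEmbeddingHom_apply, viaEmbedding_apply_of_notMem _ _ _ h,
      swap_apply_of_ne_of_ne (fun k => h ⟨i, k.symm⟩) fun k => h ⟨j, k.symm⟩]

theorem comp (h : W12 ρ B) {n : ℕ} (e : Fin n ↪ Ω) (h5 : 5 ≤ n) :
    W12 (ρ.comp (viaEmbeddingHom e)) B where
  two := h.two
  h5 := by simpa using h5
  dim := h.dim
  d3 c hc := h.d3 _ ((ct e c).trans hc)
  inv g := h.inv _
  sym := h.sym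
  nd := h.nd

theorem sc (h : W12 ρ B) {x y : Perm Ω} (a : 8 ≤ dm ρ x) (b : 8 ≤ dm ρ y) (c : 8 ≤ dm ρ (x * y)) :
    finrank K ↥(range (ρ x - 1) ⊔ range (ρ y - 1)) ≤ 6 := by
  have h1 := scott (ρ x) (ρ y)
  have h2 := BilinForm.finrank_add_finrank_orthogonal' (B := B) (range (ρ x - 1) ⊔ range (ρ y - 1))
  have h3 : ker B = ⊥ := eq_bot_iff.2 fun v hv => h.nd v fun w => by rw [mem_ker.1 hv]; rfl
  have k : ∀ g v w, ρ g w = w → B ((ρ g - 1) v) w = 0 := fun g v w e => by
    rw [LinearMap.sub_apply, map_sub, LinearMap.sub_apply, End.one_apply, sub_eq_zero]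
    conv_lhs => rw [← e]
    exact h.inv g v w
  have h4 : fs (ρ x) ⊓ fs (ρ y) ≤ BilinForm.orthogonal B (range (ρ x - 1) ⊔ range (ρ y - 1)) := by
    intro w hw u hu
    obtain ⟨_, ⟨u1, rfl⟩, _, ⟨u2, rfl⟩, rfl⟩ := Submodule.mem_sup.1 hu
    change B _ w = 0
    rw [map_add, LinearMap.add_apply, k x _ _ (mem_fs.1 hw.1), k y _ _ (mem_fs.1 hw.2), add_zero]
  have := Submodule.finrank_mono h4
  rw [h3, inf_bot_eq, finrank_bot] at h2
  rw [← map_mul] at h1
  have := h.dim
  unfold dm at a b c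
  omega

theorem small {n : ℕ} {ρ : Perm (Fin (n + 2)) →* End K V} (h : W12 ρ B) {x y : Perm (Fin (n + 2))}
    (a : 8 ≤ dm ρ x) (b : 8 ≤ dm ρ y) (c : 8 ≤ dm ρ (x * y)) (w : Fin (n + 2) → List (Fin 4))
    (e : ∀ k, k ≠ 0 → ∀ i, G.wd x y (w k) i = swap 0 1 (swap 0 k i)) :
    ∃ Y : Submodule K V, finrank K Y ≤ 6 ∧ ∀ g, sign g = 1 → ∀ v, ρ g v - v ∈ Y :=
  ⟨_, sc h a b c, fun g hg => ((G.star (H := Sg ρ ⊥ (range (ρ x - 1) ⊔ range (ρ y - 1))) (fun k hk => by
    rw [show swap 0 1 * swap 0 k = G.wd x y (w k) from (Equiv.ext (e k hk)).symm]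
    refine G.wd_mem ?_ ?_ _
    · exact ⟨fun v hv => by simp [(Submodule.mem_bot K).1 hv],
        fun v => Submodule.mem_sup_left ⟨v, rfl⟩⟩
    · exact ⟨fun v hv => by simp [(Submodule.mem_bot K).1 hv],
        fun v => Submodule.mem_sup_right ⟨v, rfl⟩⟩) g).1 hg).2⟩

theorem s5 {ρ : Perm (Fin 5) →* End K V} (h : W12 ρ B)
    (d : ∀ y : Perm (Fin 5), y.cycleType = {5} → 8 ≤ dm ρ y) :
    ∃ Y : Submodule K V, finrank K Y ≤ 6 ∧ ∀ g, sign g = 1 → ∀ v, ρ g v - v ∈ Y :=
  small h (x := swap 0 1 * swap 0 2) (y := swap 2 3 * swap 2 4)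
    (h.d3 _ (isThreeCycle_swap_mul_swap_same (by decide) (by decide) (by decide))).ge
    (h.d3 _ (isThreeCycle_swap_mul_swap_same (by decide) (by decide) (by decide))).ge
    (d _ (by decide +kernel)) ![[], [], [0], [3, 0, 1], [1, 0, 3]] (by decide +kernel)

theorem s6 {ρ : Perm (Fin 6) →* End K V} (h : W12 ρ B)
    (d : ∀ y : Perm (Fin 6), y.cycleType = {5} → 8 ≤ dm ρ y) :
    ∃ Y : Submodule K V, finrank K Y ≤ 6 ∧ ∀ g, sign g = 1 → ∀ v, ρ g v - v ∈ Y :=
  small h (x := swap 0 1 * swap 0 2) (y := swap 1 2 * swap 2 3 * swap 3 4 * swap 4 5)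
    (h.d3 _ (isThreeCycle_swap_mul_swap_same (by decide) (by decide) (by decide))).ge
    (d _ (by decide +kernel)) (d _ (by decide +kernel))
    ![[], [], [0], [0, 1, 0, 3], [3, 2, 3, 2, 1, 1], [3, 2, 1]] (by decide +kernel)

theorem eig {ω : K} (om : ω ^ 2 + ω + 1 = 0) {f : End K V} {U : Submodule K V}
    (hU : ∀ v ∈ U, f v ∈ U) (hf : ∀ v ∈ U, f (f v) + f v + v = 0) (n : U ≠ ⊥) :
    ∃ u ∈ U, u ≠ 0 ∧ ∃ a : K, a ^ 2 + a + 1 = 0 ∧ f u = a • u := by
  obtain ⟨u, hu, u0⟩ := Submodule.exists_mem_ne_zero_of_ne_bot n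
  by_cases e : f u - ω • u = 0
  · exact ⟨u, hu, u0, ω, om, sub_eq_zero.1 e⟩
  refine ⟨_, sub_mem (hU u hu) (U.smul_mem ω hu), e, ω ^ 2, by linear_combination (ω ^ 2 - ω + 1) * om, ?_⟩
  rw [map_sub, map_smul]
  linear_combination (norm := module) hf u hu - om • f u + congr((ω - 1) * $om) • u

theorem memW (h2 : (2 : K) = 0) {f : End K V} {v : V} {a : K} (ha : a ^ 2 + a + 1 = 0)
    (e : f v = a • v) : v ∈ range (f - 1) := by
  refine ⟨a • v, ?_⟩
  rw [LinearMap.sub_apply, map_smul, e, End.one_apply]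
  linear_combination (norm := module) ha • v - congr((a + 1) * $h2) • v

theorem polW {S : Type*} [Group S] (r : S →* End K V) {x : S} (e : x * x * x = 1) {v : V}
    (h : v ∈ range (r x - 1)) : r x (r x v) + r x v + v = 0 := by
  obtain ⟨w, rfl⟩ := h
  have : r x (r x (r x w)) = w := by
    rw [← End.mul_apply, ← End.mul_apply, ← map_mul, ← map_mul, e, map_one, End.one_apply]
  simp [this]

theorem invW {S : Type*} [Group S] (r : S →* End K V) {x y : S} (e : y * x = x * y) {v : V}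
    (h : v ∈ range (r x - 1)) : r y v ∈ range (r x - 1) := by
  obtain ⟨w, rfl⟩ := h
  refine ⟨r y w, ?_⟩
  simp only [LinearMap.sub_apply, End.one_apply, map_sub]
  rw [← End.mul_apply, ← map_mul, ← e, map_mul, End.mul_apply]

theorem dimW (h : W12 ρ B) {c : Perm Ω} (hc : c.IsThreeCycle) : finrank K (range (ρ c - 1)) = 4 := by
  have := rk_fs (ρ c)
  have := h.d3 c hc
  have := h.dim
  unfold dm at *
  omega

theorem m6 [IsAlgClosed K] {ρ : Perm (Fin 6) →* End K V} (h : W12 ρ B)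
    (d : ∀ y : Perm (Fin 6), y.cycleType = {5} → 8 ≤ dm ρ y) :
    range (ρ (swap 0 1 * swap 1 2) - 1) = range (ρ (swap 3 4 * swap 4 5) - 1) := by
  obtain ⟨Y, hY, kY⟩ := s6 h d
  set x : Perm (Fin 6) := swap 0 1 * swap 1 2 with hx
  set y : Perm (Fin 6) := swap 3 4 * swap 4 5 with hy
  have h2 := h.two
  have d1 := dimW h (c := x) (card_support_eq_three_iff.1 (by decide +kernel))
  have d2 := dimW h (c := y) (card_support_eq_three_iff.1 (by decide +kernel))
  have d3 := Submodule.finrank_mono (sup_le (a := range (ρ x - 1)) (b := range (ρ y - 1)) (c := Y)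
    (by rintro _ ⟨v, rfl⟩; exact kY x (by decide +kernel) v)
    (by rintro _ ⟨v, rfl⟩; exact kY y (by decide +kernel) v))
  have d4 := Submodule.finrank_sup_add_finrank_inf_eq (range (ρ x - 1)) (range (ρ y - 1))
  obtain ⟨ω, hω⟩ := IsAlgClosed.exists_root (k := K) (Polynomial.X ^ 2 + Polynomial.X + 1)
    (by rw [show (Polynomial.X ^ 2 + Polynomial.X + 1 : Polynomial K).degree = 2 by compute_degree!]; decide)
  have om : ω ^ 2 + ω + 1 = 0 := by simpa using hω
  have xy : x * y = y * x := by decide +kernel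
  obtain ⟨u1, m1, n1, a, ha, e1⟩ := eig om (f := ρ x) (U := range (ρ x - 1) ⊓ range (ρ y - 1))
    (fun v hv => ⟨invW ρ rfl hv.1, invW ρ xy hv.2⟩) (fun v hv => polW ρ (by decide +kernel) hv.1)
    (fun e => by rw [e, finrank_bot] at d4; omega)
  obtain ⟨u, m, n, b, hb, e2⟩ := eig om (f := ρ y) (U := range (ρ y - 1) ⊓ (ρ x).eigenspace a)
    (fun v hv => ⟨invW ρ rfl hv.1, End.mem_eigenspace_iff.2 (by
      rw [← End.mul_apply, ← map_mul, xy, map_mul, End.mul_apply, End.mem_eigenspace_iff.1 hv.2,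
        map_smul])⟩) (fun v hv => polW ρ (by decide +kernel) hv.1)
    (fun e => n1 ((Submodule.mem_bot K).1 (e ▸ ⟨m1.2, End.mem_eigenspace_iff.2 e1⟩)))
  have e1 := End.mem_eigenspace_iff.1 m.2
  have p1 : ∀ {z g : Perm (Fin 6)} {c : K}, ρ z u = c • u → z * g = g * z → ρ z (ρ g u) = c • ρ g u :=
    fun {z g c} e k => by rw [← End.mul_apply, ← map_mul, k, map_mul, End.mul_apply, e, map_smul]
  have p2 : ∀ {z g : Perm (Fin 6)} {c : K}, ρ z u = c • u → z * g = g * (z * z) →
      ρ z (ρ g u) = c ^ 2 • ρ g u := fun {z g c} e k => by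
    rw [← End.mul_apply, ← map_mul, k, map_mul, map_mul, End.mul_apply, End.mul_apply, e, map_smul, e,
      smul_smul, map_smul, sq]
  let g : Fin 4 → Perm (Fin 6) := ![1, swap 0 1, swap 3 4, swap 0 1 * swap 3 4]
  let α : Fin 4 → K := ![a, a ^ 2, a, a ^ 2]
  let β : Fin 4 → K := ![b, b, b ^ 2, b ^ 2]
  have q1 : ∀ i, ρ x (ρ (g i) u) = α i • ρ (g i) u := fun i => by
    fin_cases i
    exacts [p1 e1 (by decide +kernel), p2 e1 (by decide +kernel), p1 e1 (by decide +kernel),
      p2 e1 (by decide +kernel)]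
  have q2 : ∀ i, ρ y (ρ (g i) u) = β i • ρ (g i) u := fun i => by
    fin_cases i
    exacts [p1 e2 (by decide +kernel), p1 e2 (by decide +kernel), p2 e2 (by decide +kernel),
      p2 e2 (by decide +kernel)]
  have ha' : (a ^ 2) ^ 2 + a ^ 2 + 1 = 0 := by linear_combination (a ^ 2 - a + 1) * ha
  have hb' : (b ^ 2) ^ 2 + b ^ 2 + 1 = 0 := by linear_combination (b ^ 2 - b + 1) * hb
  have q3 : ∀ i, α i ^ 2 + α i + 1 = 0 := fun i => by fin_cases i; exacts [ha, ha', ha, ha']
  have q4 : ∀ i, β i ^ 2 + β i + 1 = 0 := fun i => by fin_cases i; exacts [hb, hb, hb', hb']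
  have a2 : a ^ 2 = a + 1 := by linear_combination ha - (a + 1) * h2
  have b2 : b ^ 2 = b + 1 := by linear_combination hb - (b + 1) * h2
  have w0 : ω ≠ 0 := fun e => by simp [e] at om
  have w1 : ω ≠ 1 := fun e => one_ne_zero (α := K) (by rw [e] at om; linear_combination om - h2)
  have li := (ρ x + ω • ρ y).eigenvectors_linearIndependent' (fun i => α i + ω * β i) (by
    intro i j e
    fin_cases i <;> fin_cases j <;> simp [α, β, a2, b2, w0] at e ⊢ <;>
      first
        | exact w1 (by linear_combination e - h2)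
        | exact w1 (by linear_combination -e - h2)
        | exact w1 (by linear_combination e)
        | exact w1 (by linear_combination -e)) (fun i => ρ (g i) u) fun i =>
    ⟨End.mem_eigenspace_iff.2 (by simp [q1, q2, add_smul, mul_smul]), fun e => n (by
      have := congrArg (ρ (g i)⁻¹) e
      rwa [← End.mul_apply, ← map_mul, inv_mul_cancel, map_one, End.one_apply, map_zero] at this)⟩
  have d5 := Submodule.finrank_mono (show Submodule.span K (Set.range fun i => ρ (g i) u) ≤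
      range (ρ x - 1) ⊓ range (ρ y - 1) from Submodule.span_le.2 (by
    rintro _ ⟨i, rfl⟩
    exact ⟨memW h2 (q3 i) (q1 i), memW h2 (q4 i) (q2 i)⟩))
  rw [finrank_span_eq_card li, Fintype.card_fin] at d5
  exact (Submodule.eq_of_le_of_finrank_le inf_le_left (by omega)).symm.trans
    (Submodule.eq_of_le_of_finrank_le inf_le_right (by omega))

theorem dj [IsAlgClosed K] (h : W12 ρ B) (d : ∀ y : Perm Ω, y.cycleType = {5} → 8 ≤ dm ρ y)
    {c : Perm Ω} (hc : c.IsThreeCycle) {p q r : Ω} (n : [p, q, r].Nodup) (hp : p ∉ c.support)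
    (hq : q ∉ c.support) (hr : r ∉ c.support) :
    range (ρ c - 1) = range (ρ (swap p q * swap q r) - 1) := by
  obtain ⟨a, ha⟩ := Finset.card_pos.1 (hc.card_support ▸ (by norm_num : 0 < 3))
  have n1 := hc.nodup_iff_mem_support.2 ha
  have a1 : c a ∈ c.support := apply_mem_support.2 ha
  have a2 : c (c a) ∈ c.support := apply_mem_support.2 a1
  let e : Fin 6 ↪ Ω := ⟨![a, c a, c (c a), p, q, r], by
    have : ([a, c a, c (c a)] ++ [p, q, r]).Nodup := List.nodup_append'.2 ⟨n1, n, fun z z1 z2 => by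
      simp only [List.mem_cons, List.not_mem_nil, or_false] at z1 z2
      have : z ∈ c.support := by rcases z1 with rfl | rfl | rfl <;> assumption
      rcases z2 with rfl | rfl | rfl <;> contradiction⟩
    exact List.nodup_ofFn.1 (by simpa using this)⟩
  have := m6 (comp h e (by norm_num)) fun y hy => d _ ((ct e y).trans hy)
  simp only [MonoidHom.comp_apply, map_mul (viaEmbeddingHom e), sw] at this
  rw [hc.eq_swap_mul_swap_iff_mem_support.2 ha]
  exact this

theorem big [IsAlgClosed K] (h : W12 ρ B) (d : ∀ y : Perm Ω, y.cycleType = {5} → 8 ≤ dm ρ y)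
    (h7 : 7 ≤ Fintype.card Ω) (g : Perm Ω) :
    ∀ c : Perm Ω, c.IsThreeCycle → range (ρ (g * c * g⁻¹) - 1) = range (ρ c - 1) := by
  have cj : ∀ g c : Perm Ω, c.IsThreeCycle → (g * c * g⁻¹).IsThreeCycle := fun g c hc =>
    cycleType_conj.trans hc
  have st : ∀ (a b : Ω) (c : Perm Ω), c.IsThreeCycle → a ∈ c.support →
      range (ρ (swap a b * c * (swap a b)⁻¹) - 1) = range (ρ c - 1) := by
    intro a b c hc ha
    have h1 : 2 < (insert b c.support)ᶜ.card := by
      have := Finset.card_insert_le b c.support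
      rw [Finset.card_compl, hc.card_support] at *
      omega
    obtain ⟨p, q, r, hp, hq, hr, n1, n2, n3⟩ := Finset.two_lt_card_iff.1 h1
    have k : ∀ p, p ∈ (insert b c.support)ᶜ →
        p ∉ c.support ∧ p ∉ (swap a b * c * (swap a b)⁻¹).support := fun p hp => by
      simp only [Finset.mem_compl, Finset.mem_insert, not_or] at hp
      have e : swap a b p = p := swap_apply_of_ne_of_ne (fun e => hp.2 (e ▸ ha)) hp.1
      refine ⟨hp.2, notMem_support.2 ?_⟩
      rw [swap_inv, mul_apply, mul_apply, e, notMem_support.1 hp.2, e]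
    have n : [p, q, r].Nodup := by simp [n1, n2, n3]
    rw [dj h d hc n (k p hp).1 (k q hq).1 (k r hr).1,
      dj h d (cj _ c hc) n (k p hp).2 (k q hq).2 (k r hr).2]
  induction g using swap_induction_on with
  | one => simp
  | swap_mul f a b _ ih =>
    intro c hc
    rw [← ih c hc, show swap a b * f * c * (swap a b * f)⁻¹ =
      swap a b * (f * c * f⁻¹) * (swap a b)⁻¹ by group]
    have := cj f c hc
    generalize f * c * f⁻¹ = c' at this
    by_cases ha : a ∈ c'.support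
    · exact st a b c' this ha
    by_cases hb : b ∈ c'.support
    · rw [swap_comm]; exact st b a c' this hb
    rw [show swap a b * c' = c' * swap a b from ?_, mul_inv_cancel_right]
    rw [mul_swap_eq_swap_mul, notMem_support.1 ha, notMem_support.1 hb]

theorem tr {n : ℕ} (e : Fin n ≃ Ω) {Y : Submodule K V}
    (k : ∀ g, sign g = 1 → ∀ v, ρ.comp (viaEmbeddingHom e.toEmbedding) g v - v ∈ Y) (g : Perm Ω)
    (hg : sign g = 1) (v : V) : ρ g v - v ∈ Y := by
  have : viaEmbeddingHom e.toEmbedding (e.symm.permCongr g) = g := by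
    ext x
    obtain ⟨i, rfl⟩ := e.surjective x
    exact (viaEmbedding_apply _ e.toEmbedding i).trans (by simp)
  rw [← this] at hg ⊢
  exact k _ ((sg _ _).symm.trans hg) v

theorem ker_le (A C : End K V) : finrank K (ker (A * C)) ≤ finrank K (ker A) + finrank K (ker C) := by
  have h1 := rk_map C (ker (A * C))
  have h2 : (ker (A * C)).map C ≤ ker A := by rintro _ ⟨v, hv, rfl⟩; exact hv
  have := Submodule.finrank_mono h2
  have := Submodule.finrank_mono (inf_le_right (a := ker (A * C)) (b := ker C))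
  omega

theorem five [IsAlgClosed K] (h2 : (2 : K) = 0) {S : Type*} [Group S] (r : S →* End K V) {y : S}
    (e : y ^ 5 = 1) (c : IsConj y (y ^ 2)) : ∃ k, dm r y + 4 * k = finrank K V := by
  classical
  have : NeZero ((5 : ℕ) : K) := ⟨fun e => one_ne_zero (α := K) (by
    push_cast at e; linear_combination e - 2 * h2)⟩
  obtain ⟨ζ, hζ⟩ := HasEnoughRootsOfUnity.exists_primitiveRoot K 5
  obtain ⟨g, hg⟩ := isConj_iff.1 c
  let D : K → ℕ := fun μ => finrank K ((r y).eigenspace μ)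
  have le : ∀ μ, D μ ≤ D (μ ^ 3) := fun μ => by
    have i : Injective (r g) := fun a b e => by
      have := congrArg (r g⁻¹) e
      rwa [← End.mul_apply, ← End.mul_apply, ← map_mul, inv_mul_cancel, map_one] at this
    refine ((Submodule.equivMapOfInjective (r g) i _).finrank_eq).le.trans (Submodule.finrank_mono ?_)
    rintro _ ⟨v, hv, rfl⟩
    have k : r (y ^ 2) (r g v) = μ • r g v := by
      rw [← hg, ← End.mul_apply, ← map_mul, inv_mul_cancel_right, map_mul, End.mul_apply,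
        End.mem_eigenspace_iff.1 hv, map_smul]
    rw [End.mem_eigenspace_iff, show y = y ^ 2 * y ^ 2 * y ^ 2 by
      rw [← pow_add, ← pow_add, pow_succ, e, one_mul], map_mul, map_mul, End.mul_apply,
      End.mul_apply, k, map_smul, k, map_smul, map_smul, k, smul_smul, smul_smul, pow_three']
  have z5 := hζ.pow_eq_one
  have l1 := le (ζ ^ 1)
  have l3 := le (ζ ^ 3)
  have l4 := le (ζ ^ 4)
  have l2 := le (ζ ^ 2)
  rw [show (ζ ^ 1) ^ 3 = ζ ^ 3 by ring] at l1
  rw [show (ζ ^ 3) ^ 3 = ζ ^ 4 by linear_combination ζ ^ 4 * z5] at l3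
  rw [show (ζ ^ 4) ^ 3 = ζ ^ 2 by linear_combination (ζ ^ 7 + ζ ^ 2) * z5] at l4
  rw [show (ζ ^ 2) ^ 3 = ζ ^ 1 by linear_combination ζ * z5] at l2
  have d0 : D (ζ ^ 0) = dm r y := by
    rw [dm, show fs (r y) = (r y).eigenspace (ζ ^ 0) by ext; simp [mem_fs]]
  have up : ∑ i : Fin 5, D (ζ ^ (i : ℕ)) ≤ finrank K V := by
    have := ((r y).eigenspaces_iSupIndep.comp (f := fun i : Fin 5 => ζ ^ (i : ℕ))
      fun i j e => Fin.ext (hζ.pow_inj i.2 j.2 e)).dfinsupp_lsum_injective
    have := LinearMap.finrank_le_finrank_of_injective this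
    exact (finrank_directSum K fun i : Fin 5 => ↥((r y).eigenspace (ζ ^ (i : ℕ)))).symm.le.trans this
  have lo : finrank K V ≤ ∑ i ∈ Finset.range 5, D (ζ ^ i) := by
    have p := congrArg (Polynomial.aeval (r y)) (X_pow_sub_C_eq_prod hζ (by norm_num) (one_pow 5))
    let F : ℕ → End K V := fun i => r y - ζ ^ i • 1
    have p' : F 0 * F 1 * F 2 * F 3 * F 4 = 0 := by
      simp only [Finset.prod_range_succ, Finset.range_zero, Finset.prod_empty, one_mul, map_mul,
        map_sub, map_pow (Polynomial.aeval (r y)), Polynomial.aeval_X, Polynomial.aeval_C, mul_one,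
        ← map_pow r, e, map_one, sub_self, Algebra.algebraMap_eq_smul_one] at p
      exact p.symm
    have q : ∀ i, finrank K (ker (F i)) = D (ζ ^ i) := fun i => by
      rw [show ker (F i) = (r y).eigenspace (ζ ^ i) by ext; simp [F, sub_eq_zero]]
    have a1 := ker_le (F 0 * F 1 * F 2 * F 3) (F 4)
    have a2 := ker_le (F 0 * F 1 * F 2) (F 3)
    have a3 := ker_le (F 0 * F 1) (F 2)
    have a4 := ker_le (F 0) (F 1)
    rw [p', ker_zero, finrank_top] at a1
    simp only [q] at a1 a2 a3 a4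
    simp only [Finset.sum_range_succ, Finset.range_zero, Finset.sum_empty]
    omega
  rw [Fin.sum_univ_eq_sum_range (fun i => D (ζ ^ i))] at up
  simp only [Finset.sum_range_succ, Finset.range_zero, Finset.sum_empty] at up lo
  exact ⟨D (ζ ^ 1), by omega⟩

end GW1

open GW1

theorem W12.w0 [IsAlgClosed K] {ρ : Perm Ω →* End K V} {B : V →ₗ[K] V →ₗ[K] K} (h : W12 ρ B) :
    (∀ y : Perm Ω, y.cycleType = {5} → 8 ≤ dm ρ y) ∨ ∀ y : Perm Ω, y.cycleType = {5} → dm ρ y = 4 := by
  obtain ⟨e⟩ : Nonempty (Fin 5 ↪ Ω) := Embedding.nonempty_of_card_le (by simpa using h.h5)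
  have k := comp h e le_rfl
  let a : Perm (Fin 5) := swap 0 1 * swap 0 2
  let b : Perm (Fin 5) := swap 2 3 * swap 2 4
  have h1 := dm_add_le (r := ρ.comp (viaEmbeddingHom e)) a b
  rw [k.d3 a (isThreeCycle_swap_mul_swap_same (by decide) (by decide) (by decide)),
    k.d3 b (isThreeCycle_swap_mul_swap_same (by decide) (by decide) (by decide))] at h1
  obtain ⟨m, hm⟩ := five h.two (ρ.comp (viaEmbeddingHom e)) (y := a * b) (by decide +kernel)
    (isConj_iff_cycleType_eq.2 (by decide +kernel))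
  have h2 : ∀ y : Perm Ω, y.cycleType = {5} → dm ρ y = dm (ρ.comp (viaEmbeddingHom e)) (a * b) :=
    fun y hy => dm_conj (y := viaEmbeddingHom e (a * b))
      (isConj_iff_cycleType_eq.2 (by rw [ct, hy]; decide +kernel))
  have := h.dim
  by_cases c : dm (ρ.comp (viaEmbeddingHom e)) (a * b) = 4
  · exact .inr fun y hy => (h2 y hy).trans c
  · exact .inl fun y hy => by rw [h2 y hy]; omega

theorem W12.w1 [IsAlgClosed K] {ρ : Perm Ω →* End K V} {B : V →ₗ[K] V →ₗ[K] K} (h : W12 ρ B)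
    (d : ∀ y : Perm Ω, y.cycleType = {5} → 8 ≤ dm ρ y) :
    finrank K (Submodule.span K {u | ∃ g : Perm Ω, sign g = 1 ∧ ∃ w, u = ρ g w - w}) ≤ 6 := by
  suffices ∃ Y : Submodule K V, finrank K Y ≤ 6 ∧ ∀ g, sign g = 1 → ∀ v, ρ g v - v ∈ Y by
    obtain ⟨Y, a, b⟩ := this
    refine (Submodule.finrank_mono (Submodule.span_le.2 ?_)).trans a
    rintro _ ⟨g, hg, w, rfl⟩
    exact b g hg w
  have h5 := h.h5
  by_cases e5 : Fintype.card Ω = 5
  · let e := (Fintype.equivFinOfCardEq e5).symm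
    obtain ⟨Y, a, b⟩ := s5 (comp h e.toEmbedding le_rfl) fun y hy => d _ ((ct _ y).trans hy)
    exact ⟨Y, a, tr e b⟩
  by_cases e6 : Fintype.card Ω = 6
  · let e := (Fintype.equivFinOfCardEq e6).symm
    obtain ⟨Y, a, b⟩ := s6 (comp h e.toEmbedding (by norm_num)) fun y hy => d _ ((ct _ y).trans hy)
    exact ⟨Y, a, tr e b⟩
  obtain ⟨p, q, r, n1, n2, n3⟩ := Fintype.two_lt_card_iff.1 (by omega : 2 < Fintype.card Ω)
  have hc := isThreeCycle_swap_mul_swap_same n1 n2 n3
  refine ⟨_, (dimW h hc).le.trans (by norm_num), fun g hg => ?_⟩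
  have : Subgroup.closure {σ : Perm Ω | σ.IsThreeCycle} ≤
      Sg ρ ⊥ (range (ρ (swap p q * swap p r) - 1)) := (Subgroup.closure_le _).2 fun c k => by
    obtain ⟨g, rfl⟩ := isConj_iff.1 (isConj_iff_cycleType_eq.2 (hc.cycleType.trans (IsThreeCycle.cycleType k).symm))
    exact ⟨fun v hv => by simp [(Submodule.mem_bot K).1 hv],
      fun v => big h d (by omega) g _ hc ▸ ⟨v, rfl⟩⟩
  rw [closure_three_cycles_eq_alternating] at this
  exact (this (mem_alternatingGroup.2 hg)).2

end CF.Ao.Gp
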