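import Cfsg.Agent.Ao.GA
import Cfsg.Agent.BN.LangS

/-! The standard element of order three of a fundamental `SL₂` on the module of dimension `56`. -/

set_option autoImplicit false

namespace CF.Ao.Gp.GX2

open Module Function Matrix CF.Chev CF.BN CF.ExA CF.E72 Cfsg.Lie

section
variable {K : Type*} [Field K] [CharP K 2]

theorem pp (r : Fin 126) : eV K r * eV K r = 0 := by
  rw [eV, End.mul_eq_comp, ← toLin'_mul]
  exact (congrArg toLin' ((mins.rep K).sq r)).trans (map_zero _)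

theorem pmp (r : Fin 126) : eV K r * eV K (cE7.neg r) * eV K r = eV K r := by
  rw [eV, eV, End.mul_eq_comp, End.mul_eq_comp, ← toLin'_mul, ← toLin'_mul]
  exact congrArg toLin' ((mins.rep K).tri_neg r)

theorem pm (i : Fin 7) : eV K (cE7.simple i) * eV K (cE7.neg (cE7.simple i)) =
    toLin' (diagonal fun a => if wt a i = 1 then 1 else 0) := by
  rw [eV, eV, End.mul_eq_comp, ← toLin'_mul]
  exact congrArg toLin' ((mins.ee K _).trans (by simp only [pw_simple]))

theorem mp (i : Fin 7) : eV K (cE7.neg (cE7.simple i)) * eV K (cE7.simple i) =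
    toLin' (diagonal fun a => if wt a i = -1 then 1 else 0) := by
  have := mins.ee K (cE7.neg (cE7.simple i))
  rw [cE7.neg_neg] at this
  rw [eV, eV, End.mul_eq_comp, ← toLin'_mul]
  exact congrArg toLin' (this.trans (by simp only [pw_neg, pw_simple, neg_eq_iff_eq_neg]))

theorem wt3 (a : Fin 56) (i : Fin 7) : wt a i = 0 ∨ wt a i = 1 ∨ wt a i = -1 := by
  have := mins.ge a (cE7.simple i)
  rw [pw_simple] at this
  omega

omit [CharP K 2] in
theorem dg_ext {f : End K (Fin 56 → K)} {d : Fin 56 → K}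
    (h : ∀ a, f (Pi.single a 1) = d a • (Pi.single a 1 : Fin 56 → K)) : f = toLin' (diagonal d) := by
  refine (Pi.basisFun K _).ext fun a => ?_
  rw [Pi.basisFun_apply, h, toLin'_apply, diagonal_mulVec_single, mul_one, ← Pi.single_smul,
    smul_eq_mul, mul_one]

variable {ω : Kˣ} (om : (ω : K) ^ 2 + ω + 1 = 0)
include om

omit [CharP K 2] in
theorem om3 : ω ^ 3 = 1 := Units.ext (by
  rw [Units.val_pow_eq_pow_val, Units.val_one]
  linear_combination ((ω : K) - 1) * om)

omit [CharP K 2] in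
theorem omi : ((ω⁻¹ : Kˣ) : K) = (ω : K) ^ 2 := by
  rw [← Units.val_pow_eq_pow_val]
  exact congrArg _ (inv_eq_of_mul_eq_one_right (by rw [← pow_succ', om3 om]))

theorem om1 : (ω : K) ≠ 1 := fun h => by
  rw [h] at om
  have h2 : (2 : K) = 0 := CharTwo.two_eq_zero
  exact one_ne_zero (α := K) (by linear_combination om - h2)

end

variable {q z : ℕ} {X : Type*} [Group X] {L : LS cE7 1 2 q z X}
  {R : L.G →* End L.K (Fin 56 → L.K)}
  (ht : ∀ c a, R (L.h.r3.tor c) (Pi.single a 1) =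
    ((∏ i, c i ^ wt a i : L.Kˣ) : L.K) • (Pi.single a 1 : Fin 56 → L.K))
  {ω : L.Kˣ} (om : (ω : L.K) ^ 2 + ω + 1 = 0)
include ht

theorem rx (ω : L.Kˣ) (i : Fin 7) : R (L.h.r3.tor (Pi.mulSingle i ω)) =
    toLin' (diagonal fun a => ((ω ^ wt a i : L.Kˣ) : L.K)) := dg_ext fun a => by
  rw [ht, Finset.prod_eq_single i (fun j _ h => by rw [Pi.mulSingle_eq_of_ne h, _root_.one_zpow]) (by simp),
    Pi.mulSingle_eq_same]

include om

theorem p2_eq (i : Fin 7) : p2 (R (L.h.r3.tor (Pi.mulSingle i ω))) = hV L.K i := by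
  have h2 : (2 : L.K) = 0 := CharTwo.two_eq_zero
  have h3 := congrArg Units.val (om3 om)
  rw [Units.val_pow_eq_pow_val, Units.val_one] at h3
  rw [p2, rx ht, hV, ← toLin'_pow, ← map_add, diagonal_pow, diagonal_add]
  congr 2
  funext a
  rcases wt3 a i with h | h | h <;> simp only [Pi.pow_apply, h, zpow_zero, zpow_one, _root_.zpow_neg_one,
    omi om, Units.val_one, Int.cast_zero, Int.cast_one, Int.cast_neg]
  · linear_combination h2
  · linear_combination om - h2
  · linear_combination om + (ω : L.K) * h3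

theorem p1_eq (i : Fin 7) : p1 (R (L.h.r3.tor (Pi.mulSingle i ω))) =
    toLin' (diagonal fun a => if wt a i = 0 then 1 else 0) := by
  have h2 : (2 : L.K) = 0 := CharTwo.two_eq_zero
  rw [p1, add_assoc, ← p2, p2_eq ht om, hV, End.one_eq_id, ← toLin'_one, ← map_add, ← diagonal_one,
    diagonal_add]
  congr 2
  funext a
  rcases wt3 a i with h | h | h <;> simp [h]
  linear_combination h2

theorem es_eq (i : Fin 7) : Es (R (L.h.r3.tor (Pi.mulSingle i ω))) (ω : L.K) =
    LinearMap.range (toLin' (diagonal fun a => if wt a i = 1 then (1 : L.K) else 0)) := by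
  have h1 := om1 om
  ext v
  rw [End.mem_eigenspace_iff, rx ht, toLin'_apply]
  refine ⟨fun h => ⟨v, funext fun a => ?_⟩, ?_⟩
  · have k := congrFun h a
    rw [mulVec_diagonal, Pi.smul_apply, smul_eq_mul] at k
    rw [toLin'_apply, mulVec_diagonal]
    rcases wt3 a i with h | h | h <;> simp only [h, zpow_zero, _root_.zpow_neg_one, omi om,
      Units.val_one] at k <;> simp [h]
    · exact ((mul_eq_mul_right_iff.1 k).resolve_left h1.symm).symm
    · refine ((mul_eq_mul_right_iff.1 k).resolve_left fun e => h1 ?_).symm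
      exact mul_left_cancel₀ ω.ne_zero (by rw [← sq, e, mul_one])
  · rintro ⟨w, rfl⟩
    funext a
    rw [mulVec_diagonal, Pi.smul_apply, smul_eq_mul, toLin'_apply, mulVec_diagonal]
    by_cases h : wt a i = 1 <;> simp [h]

theorem dW (i : Fin 7) : finrank L.K (Es (R (L.h.r3.tor (Pi.mulSingle i ω))) (ω : L.K)) = 12 := by
  classical
  have k : ∀ i : Fin 7, (Finset.univ.filter fun a => wt a i = 1).card = 12 := by decide +kernel
  rw [es_eq ht om]
  refine (rank_diagonal _).trans ?_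
  rw [Fintype.card_subtype, ← k i]
  congr 1
  ext a
  simp

theorem pm2 (i : Fin 7) : eV L.K (cE7.simple i) * eV L.K (cE7.neg (cE7.simple i)) +
    eV L.K (cE7.neg (cE7.simple i)) * eV L.K (cE7.simple i) =
      p2 (R (L.h.r3.tor (Pi.mulSingle i ω))) := by
  rw [p2_eq ht om, pm, mp, hV, ← map_add, diagonal_add]
  congr 2
  funext a
  rcases wt3 a i with h | h | h <;> simp [h, CharTwo.neg_eq]

theorem ex (i : Fin 7) : R (L.h.r3.tor (Pi.mulSingle i ω)) =
    1 + p2 (R (L.h.r3.tor (Pi.mulSingle i ω))) +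
      (ω : L.K) • (eV L.K (cE7.simple i) * eV L.K (cE7.neg (cE7.simple i))) +
      (ω : L.K) ^ 2 • (eV L.K (cE7.neg (cE7.simple i)) * eV L.K (cE7.simple i)) := by
  have h2 : (2 : L.K) = 0 := CharTwo.two_eq_zero
  rw [p2_eq ht om, rx ht, pm, mp, hV, End.one_eq_id, ← toLin'_one, ← map_smul, ← map_smul, ← map_add,
    ← map_add, ← map_add, ← diagonal_one, ← diagonal_smul, ← diagonal_smul, diagonal_add,
    diagonal_add, diagonal_add]
  congr 2
  funext a
  rcases wt3 a i with h | h | h <;> simp [h, omi om]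
  linear_combination h2

theorem n1 (i : Fin 7) : p1 (R (L.h.r3.tor (Pi.mulSingle i ω))) ≠ 0 := by
  have k : ∀ i : Fin 7, ∃ a, wt a i = 0 := by decide +kernel
  obtain ⟨a, h⟩ := k i
  rw [p1_eq ht om, Ne, map_eq_zero_iff _ toLin'.injective]
  intro e
  simpa [h] using congrFun₂ e a a

omit ht in
theorem x3 (i : Fin 7) : L.h.r3.tor (Pi.mulSingle i ω) ^ 3 = 1 := by
  rw [← map_pow, ← Pi.mulSingle_pow, om3 om, Pi.mulSingle_one, map_one]

/-- The structure `Tri` from its four substantial fields. -/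
theorem tri (hx : ∀ r t, R (L.ρ.x r t) = 1 + t • eV L.K r) (i : Fin 7)
    (sl : ∀ Y ∈ LV L.K, Y * p1 (R (L.h.r3.tor (Pi.mulSingle i ω))) = 0 →
      ∃ a c d : L.K, Y = a • eV L.K (cE7.simple i) + c • eV L.K (cE7.neg (cE7.simple i)) +
        d • p2 (R (L.h.r3.tor (Pi.mulSingle i ω))))
    (fl : ∀ Y ∈ LV L.K, Commute Y (R (L.h.r3.tor (Pi.mulSingle i ω))) →
      (∀ w ∈ Es (R (L.h.r3.tor (Pi.mulSingle i ω))) (ω : L.K), Y w = 0) →
      ∃ a : L.K, Y = a • p1 (R (L.h.r3.tor (Pi.mulSingle i ω))))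
    (sc : ∀ f, Commute f (R (L.h.r3.tor (Pi.mulSingle i ω))) →
      (∀ Y ∈ LV L.K, Y * Y = 0 → Commute Y (R (L.h.r3.tor (Pi.mulSingle i ω))) → Commute f Y) →
      ∃ a : L.K, f * p1 (R (L.h.r3.tor (Pi.mulSingle i ω))) =
        a • p1 (R (L.h.r3.tor (Pi.mulSingle i ω))))
    (alt : ∀ Y ∈ LV L.K, Commute Y (R (L.h.r3.tor (Pi.mulSingle i ω))) →
      Commute Y (eV L.K (cE7.neg (cE7.simple i))) →
      ∀ w ∈ Es (R (L.h.r3.tor (Pi.mulSingle i ω))) (ω : L.K),
        bV L.K (Y w) (eV L.K (cE7.neg (cE7.simple i)) w) = 0) :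
    Tri R (LV L.K) (bV L.K) (ω : L.K) (L.h.r3.tor (Pi.mulSingle i ω))
      (eV L.K (cE7.simple i)) (eV L.K (cE7.neg (cE7.simple i))) where
  x3 := x3 om i
  dW := dW ht om i
  n1 := n1 ht om i
  pL := Submodule.subset_span (.inl ⟨_, rfl⟩)
  mL := Submodule.subset_span (.inl ⟨_, rfl⟩)
  hL := by rw [p2_eq ht om]; exact Submodule.subset_span (.inr ⟨_, rfl⟩)
  pp := pp _
  mm := pp _
  pmp := pmp _
  mpm := by simpa only [cE7.neg_neg] using pmp (K := L.K) (cE7.neg (cE7.simple i))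
  pm := pm2 ht om i
  ex := ex ht om i
  pg t := ⟨_, hx _ t⟩
  mg t := ⟨_, hx _ t⟩
  sl := sl
  fl := fl
  sc := sc
  alt := alt

end CF.Ao.Gp.GX2
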