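import Cfsg.Agent.Ao.GA
import Cfsg.Agent.BN.LangS

/-! The Lie algebra of type `E₇` on the module of dimension `56` in characteristic two. -/

set_option autoImplicit false

namespace CF.Ao.Gp

open Module Function CF.E83 CF.Al CF.Chev CF.BN CF.ExA CF.E72 Cfsg.Lie

namespace GX2a

variable {K : Type*} [Field K]

theorem eV_s (r : Fin 126) (b a : Fin 56) :
    eV K r (Pi.single b 1) a = if wt a = wt b + rt cE7 r then 1 else 0 := by
  rw [eV, Matrix.toLin'_apply, Matrix.mulVec_single_one]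
  simp [mP]

theorem hV_s (i : Fin 7) (b : Fin 56) :
    hV K i (Pi.single b 1) = (wt b i : K) • (Pi.single b 1 : Fin 56 → K) := by
  rw [hV, Matrix.toLin'_apply, Matrix.mulVec_single_one]
  funext a
  by_cases h : a = b <;> simp [h, Matrix.diagonal_apply]

/-- The value of a weight. -/
def D (d : Fin 7 → K) (μ : Fin 7 → ℤ) : K := ∑ k, d k * μ k

/-- The general element. -/
noncomputable def Yc (c : Fin 126 → K) (d : Fin 7 → K) : End K (Fin 56 → K) :=
  ∑ r, c r • eV K r + ∑ i, d i • hV K i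

theorem rep {Y : End K (Fin 56 → K)} (h : Y ∈ LV K) : ∃ c d, Y = Yc c d := by
  rw [LV, Submodule.span_union, Submodule.mem_sup] at h
  obtain ⟨y, hy, z, hz, rfl⟩ := h
  obtain ⟨c, rfl⟩ := (Submodule.mem_span_range_iff_exists_fun K).1 hy
  obtain ⟨d, rfl⟩ := (Submodule.mem_span_range_iff_exists_fun K).1 hz
  exact ⟨c, d, by rw [Yc]⟩

theorem rt_ne (r : Fin 126) : rt cE7 r ≠ 0 := fun h => by
  have := mins.pw_rt r r
  rw [h, cE7.A_self] at this
  simp [pw] at this

theorem rt_inj {r s : Fin 126} (h : rt cE7 r = rt cE7 s) : r = s := by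
  have h1 := mins.pw_rt r r
  rw [h, mins.pw_rt, cE7.A_self] at h1
  have h2 := mins.eq_neg (r := r) (s := cE7.neg s) (by rw [cE7.A_neg_right, h1])
  exact (cE7.neg_injective h2).symm

theorem hs (d : Fin 7 → K) (b : Fin 56) :
    (∑ i, d i • hV K i) (Pi.single b 1) = D d (wt b) • (Pi.single b 1 : Fin 56 → K) := by
  simp only [LinearMap.sum_apply, LinearMap.smul_apply, hV_s, smul_smul, D, Finset.sum_smul]

theorem off (c : Fin 126 → K) (d : Fin 7 → K) {a b : Fin 56} {r : Fin 126}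
    (h : wt a = wt b + rt cE7 r) : Yc c d (Pi.single b 1) a = c r := by
  have n : a ≠ b := fun e => rt_ne r (by simpa [e] using h)
  rw [Yc, LinearMap.add_apply, hs, LinearMap.sum_apply, Pi.add_apply, Finset.sum_apply,
    Fintype.sum_eq_single r]
  · simp [eV_s, h, n]
  · intro s k
    have : rt cE7 r ≠ rt cE7 s := fun e => k (rt_inj e).symm
    simp [eV_s, h, this]

theorem dg (c : Fin 126 → K) (d : Fin 7 → K) (b : Fin 56) :
    Yc c d (Pi.single b 1) b = D d (wt b) := by
  rw [Yc, LinearMap.add_apply, hs, LinearMap.sum_apply, Pi.add_apply, Finset.sum_apply,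
    Finset.sum_eq_zero]
  · simp
  · intro s _
    simp [eV_s, rt_ne s]

theorem cast_eq (two : (2 : K) = 0) {m n : ℤ} (h : m % 2 = n % 2) : (m : K) = n := by
  obtain ⟨k, e⟩ := Int.ModEq.dvd h
  rw [show n = m + 2 * k by omega]
  simp [two]

theorem dl (two : (2 : K) = 0) (d : Fin 7 → K) (l : List (Fin 56)) (h : ∀ b ∈ l, D d (wt b) = 0)
    {v : Fin 7 → ℤ} (e : ∀ k, (l.map (wt · k)).sum % 2 = v k % 2) : D d v = 0 := by
  have : D d (fun k => (l.map (wt · k)).sum) = 0 := by
    clear e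
    induction l with
    | nil => simp [D]
    | cons b l ih =>
      have h1 := h b (by simp)
      have h2 := ih fun c m => h c (by simp [m])
      simp only [D, List.map_cons, List.sum_cons, Int.cast_add, mul_add, Finset.sum_add_distrib] at *
      rw [h1, h2, add_zero]
  rw [← this]
  exact Finset.sum_congr rfl fun k _ => by rw [cast_eq two (e k)]

theorem D_s (d : Fin 7 → K) (j : Fin 7) : D d (Pi.single j 1) = d j := by
  simp [D, Pi.single_apply]

theorem rt_t (r : Fin 126) (i : Fin 7) : rt cE7 r i = tabE7.car i r := by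
  rw [rt, ← cE7.A_simple]; exact (tabOf certE7).car i r

theorem pw_t (b : Fin 56) (r : Fin 126) : pw cE7 (wt b) r = ∑ k : Fin 7, tabE7.vec r k * wt b k :=
  Finset.sum_congr rfl fun k _ => congrArg (· * _) ((tabOf certE7).vec r k)

theorem t1 : ∀ (r : Fin 126) (i : Fin 7), tabE7.car i r = 2 ∨ tabE7.car i r = -2 ∨
    ∃ b : Fin 56, wt b i = 0 ∧ ∑ k : Fin 7, tabE7.vec r k * wt b k = -1 := by decide +kernel

theorem t2 : ∀ r : Fin 126, ∃ b : Fin 56, (tabE7.car 0 r ≠ 0 ∨ wt b 0 = 1) ∧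
    ∑ k : Fin 7, tabE7.vec r k * wt b k = -1 := by decide +kernel

theorem t3 : ∀ (r : Fin 126) (a : Fin 56), ∃ k : Fin 7,
    2 * wt a k + tabE7.car k r ≠ tabE7.car k (tabE7.sim 0) := by decide +kernel

theorem t4 : ∀ a : Fin 56, ∃ k : Fin 7, 2 * wt a k ≠ tabE7.car k (tabE7.sim 0) := by decide +kernel

theorem t5 : ∀ c : Fin 56, ∃ a, wt a = -wt c := by decide +kernel

/-- Witnesses. -/
def w1 : Fin 7 → Fin 7 → List (Fin 56) :=
  ![![[], [0, 1, 22], [0, 1, 2, 13], [4, 5], [0, 1, 2], [0, 1], [0]],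
    ![[0, 18], [], [10, 11], [0, 1, 2, 3], [0, 1, 2], [0, 1], [0]],
    ![[0, 18], [0, 1, 22], [], [8, 9], [0, 1, 2], [0, 1], [0]],
    ![[0, 18], [0, 1, 22], [6, 8], [], [0, 1, 2], [0, 1], [0]],
    ![[0, 18], [0, 1, 22], [6, 8], [4, 5], [], [0, 1], [0]],
    ![[0, 18], [0, 3, 27], [6, 8], [4, 5], [3, 4, 5], [], [0]],
    ![[2, 12], [2, 3, 19], [6, 8], [4, 5], [3, 4, 5], [2, 3, 4, 5], []]]

theorem t6 : ∀ i j : Fin 7, j ≠ i → (∀ b ∈ w1 i j, wt b i = 0) ∧
    ∀ k, ((w1 i j).map (wt · k)).sum % 2 = (Pi.single j 1 : Fin 7 → ℤ) k % 2 := by decide +kernel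

/-- Witnesses. -/
def w2 : Fin 7 → List (Fin 56) := ![[18], [6, 34], [6, 48], [6, 7], [12, 15], [15, 18], []]

/-- The coefficients of the projection. -/
def u2 : Fin 7 → ℤ := ![1, 1, 0, 0, 1, 0, 1]

theorem t7 : ∀ j : Fin 7, (∀ b ∈ w2 j, wt b 0 = 1) ∧ ∀ k, ((w2 j).map (wt · k)).sum % 2 =
    (Pi.single j 1 + u2 j • Pi.single 6 1 : Fin 7 → ℤ) k % 2 := by decide +kernel

theorem t8 : ∀ b : Fin 56, (∑ k, u2 k * wt b k) % 2 = (1 + wt b 0) % 2 := by decide +kernel

theorem tri (a : Fin 56) (i : Fin 7) : wt a i = -1 ∨ wt a i = 0 ∨ wt a i = 1 := by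
  have := mins.ge a (cE7.simple i)
  rw [pw_simple] at this
  omega

theorem ext {f g : End K (Fin 56 → K)} (h : ∀ a, f (Pi.single a 1) = g (Pi.single a 1)) : f = g :=
  (Pi.basisFun K _).ext fun a => by simpa using h a

theorem bV_s (v : Fin 56 → K) {a c : Fin 56} (h : wt a = -wt c) :
    bV K v (Pi.single c 1) = v a ∧ bV K (Pi.single c 1) v = v a := by
  have k : ∀ e, wt e + wt c = 0 ↔ e = a := fun e => by
    rw [add_eq_zero_iff_eq_neg, ← h, mins.inj.eq_iff]
  have k' : ∀ e, wt c + wt e = 0 ↔ e = a := fun e => by rw [add_comm, k]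
  constructor
  · rw [bV, Matrix.toLinearMap₂'_apply, Finset.sum_comm, Fintype.sum_eq_single c fun e n => by simp [n]]
    simp [k]
  · rw [bV, Matrix.toLinearMap₂'_apply, Fintype.sum_eq_single c fun e n => by simp [n]]
    simp [k']

theorem ext₂ {f g : (Fin 56 → K) →ₗ[K] (Fin 56 → K) →ₗ[K] K}
    (h : ∀ a c, f (Pi.single a 1) (Pi.single c 1) = g (Pi.single a 1) (Pi.single c 1)) : f = g :=
  LinearMap.ext_basis (Pi.basisFun K _) (Pi.basisFun K _) fun a c => by simpa using h a c

theorem sym (v w : Fin 56 → K) : bV K v w = bV K w v := by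
  have : bV K = (bV K).flip := ext₂ fun a c => by
    obtain ⟨e, h⟩ := t5 c
    rw [LinearMap.flip_apply, (bV_s _ h).1, (bV_s _ h).2]
  exact congrFun (congrArg _ (congrFun (congrArg _ this) v)) w

theorem skew (two : (2 : K) = 0) {Y : End K (Fin 56 → K)} (m : Y ∈ LV K) (v w : Fin 56 → K) :
    bV K (Y v) w = bV K v (Y w) := by
  induction m using Submodule.span_induction generalizing v w with
  | zero => simp
  | add x y _ _ a b => simp [a, b]
  | smul a x _ h => simp [h]
  | mem Y h =>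
    have : (bV K).comp Y = (bV K).compl₂ Y := ext₂ fun a c => by
      obtain ⟨e, h1⟩ := t5 c
      obtain ⟨f, h2⟩ := t5 a
      rw [LinearMap.comp_apply, LinearMap.compl₂_apply, (bV_s _ h1).1, (bV_s _ h2).2]
      rcases h with ⟨r, rfl⟩ | ⟨i, rfl⟩
      · rw [eV_s, eV_s, h1, h2]
        exact if_congr ⟨fun k => by rw [← neg_neg (wt c), k]; abel,
          fun k => by rw [← neg_neg (wt a), k]; abel⟩ rfl rfl
      · rw [hV_s, hV_s]
        by_cases k : e = a
        · have k' : f = c := mins.inj (by rw [h2, ← k, h1, neg_neg])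
          rw [k] at h1
          simp only [k, k', Pi.smul_apply, Pi.single_eq_same]
          rw [cast_eq two (show wt a i % 2 = wt c i % 2 by rw [h1, Pi.neg_apply]; omega)]
        · have k' : f ≠ c := fun x => k (mins.inj (by rw [h1, ← x, h2, neg_neg]))
          simp [k, k']
    exact LinearMap.congr_fun₂ this v w

theorem alt (two : (2 : K) = 0) {Y : End K (Fin 56 → K)} (m : Y ∈ LV K)
    (k : Commute Y (eV K (cE7.neg (cE7.simple 0)))) (w : Fin 56 → K) :
    bV K (Y w) (eV K (cE7.neg (cE7.simple 0)) w) = 0 := by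
  set M := eV K (cE7.neg (cE7.simple 0)) with hM
  have mM : M ∈ LV K := Submodule.subset_span (Or.inl ⟨_, rfl⟩)
  have s : ∀ v w, bV K (Y v) (M w) = bV K (Y w) (M v) := fun v w => by
    rw [skew two m, ← End.mul_apply, k.eq, End.mul_apply, ← skew two mM, sym]
  have h0 : ∀ k : Fin 7, rt cE7 (cE7.neg (cE7.simple 0)) k = -tabE7.car k (tabE7.sim 0) := fun k => by
    rw [rt_neg, Pi.neg_apply, rt_t]
    exact congrArg (fun u => -tabE7.car k u) ((tabOf certE7).sim (0 : Fin 7))
  have hw : w ∈ Submodule.span K (Set.range (Pi.basisFun K (Fin 56))) := by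
    rw [Basis.span_eq]; trivial
  induction hw using Submodule.span_induction with
  | zero => simp
  | add x y _ _ a b =>
    simp only [map_add, LinearMap.add_apply, a, b, s x y]
    linear_combination bV K (Y y) (M x) * two
  | smul a x _ h => simp [h]
  | mem v h =>
    obtain ⟨a, rfl⟩ := h
    rw [Pi.basisFun_apply]
    clear k s
    induction m using Submodule.span_induction with
    | zero => simp
    | add x y _ _ a b => simp [a, b]
    | smul a x _ h => simp [h]
    | mem Y h =>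
      obtain ⟨e, h1⟩ := t5 a
      rcases h with ⟨r, rfl⟩ | ⟨i, rfl⟩
      · rw [← skew two mM]
        refine (bV_s _ h1).1.trans ?_
        by_cases x : ∃ c : Fin 56, wt c = wt a + rt cE7 r
        · obtain ⟨c, x⟩ := x
          have : eV K r (Pi.single a 1) = Pi.single c 1 := funext fun u => by
            rw [eV_s, ← x, Pi.single_apply]; simp [mins.inj.eq_iff]
          obtain ⟨k, n⟩ := t3 r a
          rw [this, hM, eV_s, if_neg fun y => n ?_]
          have := congrFun y k
          rw [h1, x, Pi.neg_apply, Pi.add_apply, Pi.add_apply, h0, rt_t] at this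
          omega
        · have : eV K r (Pi.single a 1) = 0 := funext fun u => by
            rw [eV_s, if_neg fun y => x ⟨u, y⟩]; rfl
          simp [this]
      · obtain ⟨k, n⟩ := t4 a
        rw [hV_s, map_smul, LinearMap.smul_apply, (bV_s _ h1).2, hM, eV_s, if_neg fun y => n ?_, smul_zero]
        have := congrFun y k
        rw [h1, Pi.neg_apply, Pi.add_apply, h0] at this
        omega

variable (two : (2 : K) = 0) {ω : Kˣ} (om : (ω : K) ^ 2 + ω + 1 = 0) {i : Fin 7}
  {x : End K (Fin 56 → K)}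
  (hx : ∀ a, x (Pi.single a 1) = ((ω ^ wt a i : Kˣ) : K) • (Pi.single a 1 : Fin 56 → K))
include two om

omit two in
theorem inv_eq : ((ω⁻¹ : Kˣ) : K) = (ω : K) ^ 2 := by
  rw [Units.val_inv_eq_inv_val]
  exact inv_eq_of_mul_eq_one_right (by linear_combination ((ω : K) - 1) * om)

theorem pw_inj {a b : Fin 56} (h : ((ω ^ wt a i : Kˣ) : K) = (ω ^ wt b i : Kˣ)) : wt a i = wt b i := by
  have h1 : (ω : K) ≠ 1 := fun e => one_ne_zero (α := K) (by rw [e] at om; linear_combination om - two)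
  have h2 : (ω : K) ^ 2 ≠ 1 := fun e => ω.ne_zero (by linear_combination om - e - two)
  have h3 : (ω : K) ^ 2 ≠ ω := fun e =>
    one_ne_zero (α := K) (by linear_combination om - e - (ω : K) * two)
  rcases tri a i with e | e | e <;> rcases tri b i with f | f | f <;>
    simp only [e, f, zpow_neg, zpow_one, zpow_zero, inv_eq om, Units.val_one] at h ⊢ <;>
    first | rfl | exact absurd h (by assumption) | exact absurd h.symm (by assumption)

include hx

theorem p2_eq : p2 x = hV K i := ext fun a => by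
  rw [hV_s, p2, LinearMap.add_apply, sq, End.mul_apply, hx, map_smul, hx, smul_smul, ← add_smul]
  congr 1
  rcases tri a i with e | e | e <;>
    simp only [e, zpow_neg, zpow_one, zpow_zero, inv_eq om, Units.val_one] <;> push_cast
  · linear_combination ((ω : K) ^ 2 - ω + 1) * om
  · linear_combination two
  · linear_combination om - two

theorem p1_s (a : Fin 56) :
    p1 x (Pi.single a 1) = ((1 + wt a i : ℤ) : K) • (Pi.single a 1 : Fin 56 → K) := by
  rw [p1, add_assoc, LinearMap.add_apply, show x + x ^ 2 = _ from p2_eq two om hx, hV_s]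
  simp [add_smul]

theorem sl {Y : End K (Fin 56 → K)} (m : Y ∈ LV K) (h : Y * p1 x = 0) :
    ∃ a c d : K, Y = a • eV K (cE7.simple i) + c • eV K (cE7.neg (cE7.simple i)) + d • p2 x := by
  obtain ⟨c, d, rfl⟩ := rep m
  have k : ∀ b : Fin 56, wt b i = 0 → Yc c d (Pi.single b 1) = 0 := fun b e => by
    have := congrArg (fun f : End K (Fin 56 → K) => f (Pi.single b 1)) h
    simpa [p1_s two om hx, e] using this
  refine ⟨c (cE7.simple i), c (cE7.neg (cE7.simple i)), d i, ?_⟩
  rw [p2_eq two om hx, Yc, Fintype.sum_eq_single i, Fintype.sum_eq_add (cE7.simple i)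
    (cE7.neg (cE7.simple i))]
  · intro e
    have := cE7.A_neg_right (cE7.simple i) (cE7.simple i)
    rw [← e, cE7.A_self] at this
    omega
  · intro r n
    have e : cE7.A (cE7.simple i) r = tabE7.car i r := (tabOf certE7).car i r
    rcases t1 r i with t | t | ⟨b, t, t'⟩
    · exact absurd (cE7.neg_injective (mins.eq_neg (r := cE7.simple i) (s := cE7.neg r)
        (by rw [cE7.A_neg_right, e, t]))) n.1
    · exact absurd (mins.eq_neg (e.trans t)) n.2
    · obtain ⟨a, s⟩ := mins.ex.2 ((pw_t b r).trans t')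
      rw [← off c d s, k b t, Pi.zero_apply, zero_smul]
  · intro j n
    rw [← D_s d j, dl two d _ (fun b m => by rw [← dg c d, k b ((t6 i j n).1 b m)]; rfl) (t6 i j n).2,
      zero_smul]

end GX2a

namespace GX2a

theorem fl {K : Type*} [Field K] (two : (2 : K) = 0) {ω : Kˣ} (om : (ω : K) ^ 2 + ω + 1 = 0)
    {x : End K (Fin 56 → K)}
    (hx : ∀ a, x (Pi.single a 1) = ((ω ^ wt a 0 : Kˣ) : K) • (Pi.single a 1 : Fin 56 → K))
    {Y : End K (Fin 56 → K)} (m : Y ∈ LV K) (h : Commute Y x) (h' : ∀ w ∈ Es x (ω : K), Y w = 0) :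
    ∃ a : K, Y = a • p1 x := by
  obtain ⟨c, d, rfl⟩ := rep m
  have k : ∀ b : Fin 56, wt b 0 = 1 → Yc c d (Pi.single b 1) = 0 := fun b e =>
    h' _ (End.mem_eigenspace_iff.2 (by rw [hx, e, zpow_one]))
  have xd : ∀ (v : Fin 56 → K) a, x v a = ((ω ^ wt a 0 : Kˣ) : K) * v a := fun v a => by
    have : x = Matrix.toLin' (Matrix.diagonal fun a : Fin 56 => ((ω ^ wt a 0 : Kˣ) : K)) := ext fun b => by
      rw [hx, Matrix.toLin'_apply, Matrix.mulVec_single_one]
      funext u
      by_cases e : u = b <;> simp [e, Matrix.diagonal_apply]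
    rw [this, Matrix.toLin'_apply, Matrix.mulVec_diagonal]
  have hc : ∀ r, c r = 0 := fun r => by
    obtain ⟨b, t, t'⟩ := t2 r
    obtain ⟨a, s⟩ := mins.ex.2 ((pw_t b r).trans t')
    rcases t with t | t
    · have := congrArg (fun f : End K (Fin 56 → K) => f (Pi.single b 1) a) h.eq
      simp only [End.mul_apply, hx, map_smul, Pi.smul_apply, xd, off c d s, smul_eq_mul] at this
      by_contra n
      have e := pw_inj two om (mul_right_cancel₀ n this)
      rw [s, Pi.add_apply, rt_t] at e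
      exact t (left_eq_add.1 e)
    · rw [← off c d s, k b t, Pi.zero_apply]
  have hd : ∀ j, d j = u2 j * d 6 := fun j => by
    have := dl two d _ (fun b m => by rw [← dg c d, k b ((t7 j).1 b m)]; rfl) (t7 j).2
    simp only [D, Pi.add_apply, Pi.smul_apply, Pi.single_apply, smul_eq_mul, Int.cast_add, Int.cast_mul,
      Int.cast_ite, Int.cast_one, Int.cast_zero, mul_add, mul_ite, mul_one, mul_zero,
      Finset.sum_add_distrib, Finset.sum_ite_eq', Finset.mem_univ, if_true] at this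
    linear_combination this - u2 j * d 6 * two
  refine ⟨d 6, ext fun b => ?_⟩
  rw [LinearMap.smul_apply, p1_s two om hx, smul_smul, Yc, Finset.sum_eq_zero fun r _ => by
    rw [hc, zero_smul], zero_add, hs, ← cast_eq two (t8 b), D, Int.cast_sum, Finset.mul_sum]
  congr 1
  exact Finset.sum_congr rfl fun j _ => by rw [hd j]; push_cast; ring

end GX2a

section
variable {q z : ℕ} {X : Type*} [Group X] [Finite X] (L : LS cE7 1 2 q z X)
  {R : L.G →* End L.K (Fin 56 → L.K)} (hx : ∀ r t, R (L.ρ.x r t) = 1 + t • eV L.K r)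
  (ht : ∀ c a, R (L.h.r3.tor c) (Pi.single a 1) =
    ((∏ i, c i ^ wt a i : L.Kˣ) : L.K) • (Pi.single a 1 : Fin 56 → L.K))
  {ω : L.Kˣ} (om : (ω : L.K) ^ 2 + ω + 1 = 0)

omit [Finite X] in
include ht in
theorem GX2a.ts (ω : L.Kˣ) (i : Fin 7) (a : Fin 56) :
    R (L.h.r3.tor (Pi.mulSingle i ω)) (Pi.single a 1) =
      ((ω ^ wt a i : L.Kˣ) : L.K) • (Pi.single a 1 : Fin 56 → L.K) := by
  rw [ht, Fintype.prod_eq_single i fun j n => by simp [n], Pi.mulSingle_eq_same]

include hx ht om

set_option linter.unusedSectionVars false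

theorem sl0 (i : Fin 7) : ∀ Y ∈ LV L.K, Y * p1 (R (L.h.r3.tor (Pi.mulSingle i ω))) = 0 →
    ∃ a c d : L.K, Y = a • eV L.K (cE7.simple i) + c • eV L.K (cE7.neg (cE7.simple i)) +
      d • p2 (R (L.h.r3.tor (Pi.mulSingle i ω))) :=
  fun _ m => GX2a.sl CharTwo.two_eq_zero om (GX2a.ts L ht ω i) m

theorem fl0 : ∀ Y ∈ LV L.K, Commute Y (R (L.h.r3.tor (Pi.mulSingle 0 ω))) →
    (∀ w ∈ Es (R (L.h.r3.tor (Pi.mulSingle 0 ω))) (ω : L.K), Y w = 0) →
    ∃ a : L.K, Y = a • p1 (R (L.h.r3.tor (Pi.mulSingle 0 ω))) :=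
  fun _ m => GX2a.fl CharTwo.two_eq_zero om (GX2a.ts L ht ω 0) m

theorem alt0 : ∀ Y ∈ LV L.K, Commute Y (R (L.h.r3.tor (Pi.mulSingle 0 ω))) →
    Commute Y (eV L.K (cE7.neg (cE7.simple 0))) → ∀ w ∈ Es (R (L.h.r3.tor (Pi.mulSingle 0 ω))) (ω : L.K),
      bV L.K (Y w) (eV L.K (cE7.neg (cE7.simple 0)) w) = 0 :=
  fun _ m _ k w _ => GX2a.alt CharTwo.two_eq_zero m k w

end

end CF.Ao.Gp
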