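import Cfsg.Agent.Ao.GX2a

/-! The standard pair of quadratic elements of order three in `E₇`. -/

set_option autoImplicit false

namespace CF.Ao.Gp

open Module Function CF.Chev CF.ExA CF.E72 Cfsg.Lie Matrix

namespace GX3

variable {K : Type*} [Field K]

/-- diagonal maps -/
noncomputable def dV (u : Fin 56 → K) : End K (Fin 56 → K) := toLin' (diagonal u)

theorem dV_apply (u v : Fin 56 → K) (a : Fin 56) : dV u v a = u a * v a := by
  simp [dV, mulVec_diagonal]

theorem dV_mul (u w : Fin 56 → K) : dV u * dV w = dV (u * w) := by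
  refine LinearMap.ext fun v => funext fun a => ?_
  simp [dV_apply, mul_assoc]

theorem comm_dd (u w : Fin 56 → K) : Commute (dV u) (dV w) := by
  rw [Commute, SemiconjBy, dV_mul, dV_mul, mul_comm]

open _root_.Classical in
theorem eV_apply (r : Fin 126) (v : Fin 56 → K) (a : Fin 56) :
    eV K r v a = ∑ b, if wt a = wt b + rt cE7 r then v b else 0 := by
  simp only [eV, toLin'_apply, mulVec, dotProduct, mP, of_apply, true_and, ite_mul, one_mul,
    zero_mul]

theorem comm_ed {r : Fin 126} {u : Fin 56 → K}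
    (h : ∀ a b, wt a = wt b + rt cE7 r → u a = u b) : Commute (eV K r) (dV u) := by
  refine LinearMap.ext fun v => funext fun a => ?_
  simp only [End.mul_apply, dV_apply, eV_apply, Finset.mul_sum]
  refine Finset.sum_congr rfl fun b _ => ?_
  split_ifs with k
  · rw [h a b k]
  · simp

theorem eV_zero {r : Fin 126} {v : Fin 56 → K} (h : ∀ b, v b ≠ 0 → pw cE7 (wt b) r ≠ -1) :
    eV K r v = 0 := by
  funext a
  rw [eV_apply]
  refine Finset.sum_eq_zero fun b _ => ?_
  split_ifs with k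
  · by_contra e
    exact h b e (mins.ex.1 ⟨a, k⟩)
  · rfl

open _root_.Classical in
theorem eV_entry (r : Fin 126) (a b : Fin 56) :
    eV K r (Pi.single b 1) a = if wt a = wt b + rt cE7 r then 1 else 0 := by
  rw [eV_apply, Finset.sum_eq_single b (fun c _ hc => by simp [hc]) (by simp)]
  simp

theorem eV_single {r : Fin 126} {a b : Fin 56} (h : wt a = wt b + rt cE7 r) :
    eV K r (Pi.single b 1) = Pi.single a 1 := by
  funext c
  rw [eV_entry, ← h, Pi.single_apply]
  simp only [mins.inj.eq_iff]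

theorem comm_ee {r s : Fin 126} (h : cE7.A r s = 0) : Commute (eV K r) (eV K s) := by
  have h' : cE7.A s r = 0 := (cE7.A_eq_zero_iff r s).1 h
  have key : ∀ {r s : Fin 126}, cE7.A r s = 0 → ∀ a b : Fin 56,
      wt a = wt b + (rt cE7 s + rt cE7 r) → ∃ c, wt c = wt b + rt cE7 r := fun {r s} h a b e => by
    have h1 := mins.ge a r
    have h2 := mins.ge b r
    rw [e, pw_add, pw_add, mins.pw_rt, mins.pw_rt, h, cE7.A_self] at h1
    exact mins.ex.2 (by omega)
  change eV K r * eV K s = eV K s * eV K r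
  simp only [eV, End.mul_eq_comp, ← toLin'_mul, mins.mul]
  congr 1
  refine mP_congr (add_comm _ _) fun a b e => ?_
  simp only [true_and, and_true]
  exact iff_of_true (key h' a b (by rw [e, add_comm (rt cE7 s)])) (key h a b e)

theorem rt_inj {r s : Fin 126} (h : rt cE7 r = rt cE7 s) : r = s := by
  have h1 : cE7.A (cE7.neg r) s = -2 := by
    rw [cE7.A_neg_left, ← mins.pw_rt, ← h, mins.pw_rt, cE7.A_self]
  rw [mins.eq_neg h1, cE7.neg_neg]

theorem rt_ne (r : Fin 126) (a : Fin 56) : wt a ≠ wt a + rt cE7 r := fun e => by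
  have := congrArg (pw cE7 · r) e
  simp only [pw_add, mins.pw_rt, cE7.A_self] at this
  omega

/-- the diagonal of the torus element of a simple root -/
noncomputable def uu (ω : Kˣ) (i : Fin 7) : Fin 56 → K := fun a => ((ω ^ wt a i : Kˣ) : K)

theorem wt3 (a : Fin 56) (i : Fin 7) : wt a i = 0 ∨ wt a i = 1 ∨ wt a i = -1 := by
  have := mins.ge a (cE7.simple i)
  rw [pw_simple] at this
  omega

section
variable [CharP K 2] {ω : Kˣ} (om : (ω : K) ^ 2 + ω + 1 = 0)
include om

theorem om1 : (ω : K) ≠ 1 := fun e => by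
  rw [e, one_pow, CharTwo.add_self_eq_zero, zero_add] at om
  exact one_ne_zero om

omit [CharP K 2] in
theorem omi : ((ω ^ (-1 : ℤ) : Kˣ) : K) = (ω : K) ^ 2 := by
  rw [_root_.zpow_neg_one, Units.val_inv_eq_inv_val]
  refine inv_eq_of_mul_eq_one_right ?_
  linear_combination ((ω : K) - 1) * om

theorem om2 : (ω : K) ^ 2 ≠ ω := fun e => om1 om (mul_left_cancel₀ ω.ne_zero (by
  rw [← sq, e, mul_one]))

theorem om3 : (ω : K) ^ 2 ≠ 1 := fun e => by
  rw [e, add_right_comm, CharTwo.add_self_eq_zero, zero_add] at om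
  exact ω.ne_zero om

theorem uu_om {i : Fin 7} {a : Fin 56} : uu ω i a = ω ↔ wt a i = 1 := by
  rcases wt3 a i with k | k | k <;> simp only [uu, k]
  · simpa using fun e => om1 om (by rw [← e])
  · simp
  · rw [omi om]; simpa using om2 om

theorem uu_one {i : Fin 7} {a : Fin 56} : uu ω i a = 1 ↔ wt a i = 0 := by
  rcases wt3 a i with k | k | k <;> simp only [uu, k]
  · simp
  · simpa using fun e => om1 om (by rw [e]; rfl)
  · rw [omi om]; simpa using om3 om

theorem mem_Es {i : Fin 7} {v : Fin 56 → K} :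
    v ∈ Es (dV (uu ω i)) (ω : K) ↔ ∀ a, v a ≠ 0 → wt a i = 1 := by
  rw [End.mem_eigenspace_iff, funext_iff]
  refine forall_congr' fun a => ?_
  rw [dV_apply, Pi.smul_apply, smul_eq_mul, ← uu_om om, mul_eq_mul_right_iff]
  tauto

theorem fix_iff {i : Fin 7} {v : Fin 56 → K} :
    dV (uu ω i) v = v ↔ ∀ a, v a ≠ 0 → wt a i = 0 := by
  rw [funext_iff]
  refine forall_congr' fun a => ?_
  rw [dV_apply, ← uu_one om]
  by_cases h : v a = 0
  · simp [h]
  · simp [h]

theorem p2_apply {i : Fin 7} {v : Fin 56 → K} {a : Fin 56} (h : p2 (dV (uu ω i)) v a ≠ 0) :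
    wt a i ≠ 0 ∧ v a ≠ 0 := by
  have e : p2 (dV (uu ω i)) v a = (uu ω i a + uu ω i a * uu ω i a) * v a := by
    simp [sq, dV_apply, add_mul, mul_assoc]
  rw [e] at h
  refine ⟨fun k => left_ne_zero_of_mul h ?_, right_ne_zero_of_mul h⟩
  rw [(uu_one om).2 k, mul_one, CharTwo.add_self_eq_zero]

theorem mem_Q {v : Fin 56 → K} : v ∈ Es (dV (uu ω 0)) (ω : K) ⊓ Es (dV (uu ω 1)) (ω : K) ↔
    v = v 6 • Pi.single 6 1 + v 46 • Pi.single 46 1 := by
  have key : ∀ a : Fin 56, (wt a 0 = 1 ∧ wt a 1 = 1) ↔ (a = 6 ∨ a = 46) := by decide +kernel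
  rw [Submodule.mem_inf, mem_Es om, mem_Es om, ← forall_and]
  simp only [← imp_and, key]
  constructor
  · intro h
    funext a
    by_cases k : a = 6
    · subst k; simp
    by_cases k' : a = 46
    · subst k'; simp
    have : v a = 0 := by_contra fun e => (h a e).elim k k'
    simp [this, k, k']
  · intro h a ha
    by_contra k
    push Not at k
    rw [h] at ha
    simp [k.1, k.2] at ha

theorem d2 : finrank K ↥(Es (dV (uu ω 0)) (ω : K) ⊓ Es (dV (uu ω 1)) (ω : K)) = 2 := by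
  have li : LinearIndependent K fun k : Fin 2 =>
      (Pi.single (![6, 46] k : Fin 56) 1 : Fin 56 → K) :=
    (Pi.linearIndependent_single_one (Fin 56) K).comp _ (by decide)
  suffices H : Es (dV (uu ω 0)) (ω : K) ⊓ Es (dV (uu ω 1)) (ω : K) = Submodule.span K
      (Set.range fun k : Fin 2 => (Pi.single (![6, 46] k : Fin 56) 1 : Fin 56 → K)) by
    rw [H, finrank_span_eq_card li, Fintype.card_fin]
  refine le_antisymm (fun v hv => ?_) (Submodule.span_le.2 ?_)
  · rw [(mem_Q om).1 hv]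
    exact add_mem (Submodule.smul_mem _ _ (Submodule.subset_span ⟨0, rfl⟩))
      (Submodule.smul_mem _ _ (Submodule.subset_span ⟨1, rfl⟩))
  · rintro _ ⟨k, rfl⟩
    refine (mem_Q om).2 ?_
    fin_cases k <;> simp

end

/-- commutes with the `sl₂` of a simple root -/
def Cm (ω : Kˣ) (i : Fin 7) (f : End K (Fin 56 → K)) : Prop :=
  Commute f (eV K (cE7.simple i)) ∧ Commute f (eV K (cE7.neg (cE7.simple i))) ∧
    Commute f (dV (uu ω i))

theorem cm_e (ω : Kˣ) {i : Fin 7} {r : Fin 126} (h : rt cE7 r i = 0) : Cm ω i (eV K r) := by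
  have h1 : cE7.A (cE7.simple i) r = 0 := by rw [cE7.A_simple]; exact h
  refine ⟨(comm_ee h1).symm, (comm_ee (by rw [cE7.A_neg_left, h1, neg_zero])).symm,
    comm_ed fun a b e => ?_⟩
  simp only [uu, e, Pi.add_apply, h, add_zero]

theorem cm_h (ω : Kˣ) {i j : Fin 7} (h : rt cE7 (cE7.simple i) j = 0) : Cm ω i (hV K j) :=
  ⟨(comm_ed (u := fun a => (wt a j : K)) fun a b e => by simp [e, h]).symm,
    (comm_ed (u := fun a => (wt a j : K)) fun a b e => by simp [e, h, rt_neg]).symm, comm_dd _ _⟩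

theorem Cm.mul {ω : Kˣ} {i : Fin 7} {f g : End K (Fin 56 → K)} (h : Cm ω i f) (k : Cm ω i g) :
    Cm ω i (f * g) := ⟨h.1.mul_left k.1, h.2.1.mul_left k.2.1, h.2.2.mul_left k.2.2⟩

theorem Cm.x {ω : Kˣ} {i : Fin 7} {f : End K (Fin 56 → K)} (h : Cm ω i f) (t : K) :
    Cm ω i (1 + t • f) :=
  ⟨(Commute.one_left _).add_left (h.1.smul_left t), (Commute.one_left _).add_left (h.2.1.smul_left t),
    (Commute.one_left _).add_left (h.2.2.smul_left t)⟩

/-- the roots of the subsystem of type `D₄` -/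
def S4 (r : Fin 126) : Prop :=
  rt cE7 r 0 = 0 ∧ rt cE7 r 1 = 0 ∧ ∀ b : Fin 56, wt b 0 ≠ 0 → wt b 1 ≠ 0 → pw cE7 (wt b) r = 0

noncomputable instance : DecidablePred S4 := fun r => by unfold S4; infer_instance

theorem card_S4 : Fintype.card {r // S4 r} = 24 := by
  rw [Fintype.card_subtype]
  decide +kernel

/-- the generators of `D` -/
noncomputable def gen (K : Type*) [Field K] : {r // S4 r} ⊕ Fin 3 → End K (Fin 56 → K) :=
  Sum.elim (fun r => eV K r) fun k => hV K (![4, 5, 6] k)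

/-- a matrix entry -/
def ent (K : Type*) [Field K] (a b : Fin 56) : Dual K (End K (Fin 56 → K)) where
  toFun f := f (Pi.single b 1) a
  map_add' _ _ := rfl
  map_smul' _ _ := rfl

theorem li_gen : LinearIndependent K (gen K) := by
  have h0 : ∀ r : Fin 126, ∃ b : Fin 56, pw cE7 (wt b) r = -1 := by decide +kernel
  choose b hb using h0
  choose a ha using fun r => mins.ex.2 (hb r)
  have hh : ∀ (j : Fin 7) (a b : Fin 56), ent K a b (hV K j) = if a = b then (wt a j : K) else 0 :=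
    fun j a b => by
      change dV (fun a => (wt a j : K)) (Pi.single b 1) a = _
      rw [dV_apply, Pi.single_apply, mul_ite, mul_one, mul_zero]
  have hw : ∀ k l : Fin 3, wt (![13, 22, 0] k) (![4, 5, 6] l) = if k = l then 1 else 0 := by
    decide +kernel
  refine LinearIndependent.of_pairwise_dual_eq_zero_one _
    (Sum.elim (fun r => ent K (a r) (b r)) fun k => ent K (![13, 22, 0] k) (![13, 22, 0] k)) ?_ ?_
  · rintro (r | k) (s | l) n
    · refine (eV_entry s _ _).trans (if_neg fun e => n ?_)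
      rw [Subtype.ext (rt_inj (add_left_cancel ((ha r).symm.trans e)))]
    · refine (hh _ _ _).trans (if_neg fun e => rt_ne r (b r) ?_)
      rw [← ha r, e]
    · exact (eV_entry s _ _).trans (if_neg (rt_ne _ _))
    · refine (hh _ _ _).trans ?_
      rw [if_pos rfl, hw, if_neg fun e => n (by rw [e]), Int.cast_zero]
  · rintro (r | k)
    · exact (eV_entry r _ _).trans (if_pos (ha r))
    · refine (hh _ _ _).trans ?_
      rw [if_pos rfl, hw, if_pos rfl, Int.cast_one]

end GX3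

open GX3

variable {q z : ℕ} {X : Type*} [Group X] [Finite X] (L : CF.BN.LS cE7 1 2 q z X)
  {R : L.G →* End L.K (Fin 56 → L.K)} (hx : ∀ r t, R (L.ρ.x r t) = 1 + t • eV L.K r)
  (ht : ∀ c a, R (L.h.r3.tor c) (Pi.single a 1) =
    ((∏ i, c i ^ wt a i : L.Kˣ) : L.K) • (Pi.single a 1 : Fin 56 → L.K))
  {ω : L.Kˣ} (om : (ω : L.K) ^ 2 + ω + 1 = 0)

omit [Finite X] in
include ht in
theorem GX3.tor_eq (ω : L.Kˣ) (i : Fin 7) : R (L.h.r3.tor (Pi.mulSingle i ω)) = dV (uu ω i) := by
  refine (Pi.basisFun L.K (Fin 56)).ext fun a => funext fun c => ?_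
  rw [Pi.basisFun_apply, ht, dV_apply, Finset.prod_eq_single i (fun j _ h => by simp [h]) (by simp),
    Pi.mulSingle_eq_same, Pi.smul_apply, smul_eq_mul, Pi.single_apply]
  split_ifs with h
  · rw [h]; rfl
  · simp

include hx ht om

theorem GX3.cs {i : Fin 7} {f : End L.K (Fin 56 → L.K)} (h : Cm ω i f) :
    Cs (LV L.K) (dV (uu ω i)) f := by
  intro Y m e
  obtain ⟨a, c, d, rfl⟩ := sl0 L hx ht om i Y m (by rwa [GX3.tor_eq L ht])
  rw [GX3.tor_eq L ht]
  exact ((h.1.smul_right a).add_right (h.2.1.smul_right c)).add_right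
    ((h.2.2.add_right (h.2.2.pow_right 2)).smul_right d)

theorem pr0 : Pr R (LV L.K) (ω : L.K) (L.h.r3.tor (Pi.mulSingle 0 ω))
    (L.h.r3.tor (Pi.mulSingle 1 ω)) := by
  refine ⟨?_, ?_, ?_⟩ <;> rw [GX3.tor_eq L ht, GX3.tor_eq L ht]
  · exact d2 om
  · refine ⟨Submodule.span L.K (Set.range (gen L.K)), Submodule.span_mono ?_, ?_, fun Y hY => ?_⟩
    · rintro _ ⟨r | k, rfl⟩
      exacts [Or.inl ⟨_, rfl⟩, Or.inr ⟨_, rfl⟩]
    · rw [finrank_span_eq_card li_gen, Fintype.card_sum, card_S4, Fintype.card_fin]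
    induction hY using Submodule.span_induction with
    | mem Y hY =>
      obtain ⟨r | k, rfl⟩ := hY
      · refine ⟨GX3.cs L hx ht om (cm_e ω r.2.1), GX3.cs L hx ht om (cm_e ω r.2.2.1),
          LinearMap.ext fun v => eV_zero fun b hb => ?_⟩
        have h1 := p2_apply om hb
        rw [r.2.2.2 b h1.1 (p2_apply om h1.2).1]
        omega
      · have h0 : ∀ k : Fin 3, rt cE7 (cE7.simple 0) (![4, 5, 6] k) = 0 ∧
            rt cE7 (cE7.simple 1) (![4, 5, 6] k) = 0 ∧
            ∀ b : Fin 56, wt b 0 ≠ 0 → wt b 1 ≠ 0 → wt b (![4, 5, 6] k) = 0 := by decide +kernel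
        refine ⟨GX3.cs L hx ht om (cm_h ω (h0 k).1), GX3.cs L hx ht om (cm_h ω (h0 k).2.1),
          LinearMap.ext fun v => funext fun b => ?_⟩
        refine (dV_apply (fun a => (wt a (![4, 5, 6] k) : L.K)) _ b).trans ?_
        by_contra hb
        have h1 := p2_apply om (right_ne_zero_of_mul hb)
        refine left_ne_zero_of_mul hb ?_
        simp only [(h0 k).2.2 b h1.1 (p2_apply om h1.2).1, Int.cast_zero]
    | zero => exact ⟨fun _ _ _ => Commute.zero_left _, fun _ _ _ => Commute.zero_left _, zero_mul _⟩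
    | add Y Z _ _ a b =>
      exact ⟨fun W m e => (a.1 W m e).add_left (b.1 W m e),
        fun W m e => (a.2.1 W m e).add_left (b.2.1 W m e), by rw [add_mul, a.2.2, b.2.2, add_zero]⟩
    | smul t Y _ a =>
      exact ⟨fun W m e => (a.1 W m e).smul_left t, fun W m e => (a.2.1 W m e).smul_left t,
        by rw [smul_mul_assoc, a.2.2, smul_zero]⟩
  intro d hd
  obtain ⟨γ, g0, g1, g2, g3, g4⟩ : ∃ γ : Fin 126, (∀ i, wt 6 i = wt 46 i + rt cE7 γ i) ∧
      rt cE7 γ 0 = 0 ∧ rt cE7 γ 1 = 0 ∧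
      (∀ a : Fin 56, wt a 0 = 1 → wt a 1 = 0 → pw cE7 (wt a) γ = 0) ∧
      ∀ a : Fin 56, wt a 1 = 1 → wt a 0 = 0 → pw cE7 (wt a) γ = 0 := by decide +kernel
  have g5 : wt 6 = wt 46 + rt cE7 γ := funext g0
  have g6 : wt 46 = wt 6 + rt cE7 (cE7.neg γ) := by rw [rt_neg, g5]; abel
  let Ok : End L.K (Fin 56 → L.K) → Prop := fun f => Cm ω 0 f ∧ Cm ω 1 f ∧
    (∀ v ∈ Es (dV (uu ω 0)) (ω : L.K), dV (uu ω 1) v = v → f v = v) ∧
      ∀ v ∈ Es (dV (uu ω 1)) (ω : L.K), dV (uu ω 0) v = v → f v = v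
  have okm : ∀ {f g}, Ok f → Ok g → Ok (f * g) := fun a b =>
    ⟨a.1.mul b.1, a.2.1.mul b.2.1,
      fun v m e => by rw [End.mul_apply, b.2.2.1 v m e, a.2.2.1 v m e],
      fun v m e => by rw [End.mul_apply, b.2.2.2 v m e, a.2.2.2 v m e]⟩
  have okx : ∀ (r : Fin 126) (t : L.K), r = γ ∨ r = cE7.neg γ → Ok (1 + t • eV L.K r) := by
    intro r t hr
    have k0 : ∀ a : Fin 56, pw cE7 (wt a) γ = 0 → pw cE7 (wt a) r ≠ -1 := fun a e => by
      rcases hr with rfl | rfl
      · omega
      · rw [pw_neg]; omega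
    refine ⟨(cm_e ω ?_).x t, (cm_e ω ?_).x t, fun v m e => ?_, fun v m e => ?_⟩
    · rcases hr with rfl | rfl <;> simp [rt_neg, g1]
    · rcases hr with rfl | rfl <;> simp [rt_neg, g2]
    · rw [LinearMap.add_apply, LinearMap.smul_apply, eV_zero fun a ha =>
        k0 a (g3 a ((mem_Es om).1 m a ha) ((fix_iff om).1 e a ha)), smul_zero, add_zero]; rfl
    · rw [LinearMap.add_apply, LinearMap.smul_apply, eV_zero fun a ha =>
        k0 a (g4 a ((mem_Es om).1 m a ha) ((fix_iff om).1 e a ha)), smul_zero, add_zero]; rfl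
  set e1 : Fin 56 → L.K := Pi.single 6 1 with he1
  set e2 : Fin 56 → L.K := Pi.single 46 1 with he2
  have p2' : eV L.K γ e2 = e1 := eV_single g5
  have m1' : eV L.K (cE7.neg γ) e1 = e2 := eV_single g6
  have w1 : pw cE7 (wt 46) γ = -1 := mins.ex.1 ⟨_, g5⟩
  have w2 : pw cE7 (wt 6) (cE7.neg γ) = -1 := mins.ex.1 ⟨_, g6⟩
  have p1' : eV L.K γ e1 = 0 := eV_zero fun a ha => by
    obtain rfl : a = 6 := by_contra fun k => ha (by simp [he1, k])
    rw [pw_neg] at w2; omega
  have m2' : eV L.K (cE7.neg γ) e2 = 0 := eV_zero fun a ha => by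
    obtain rfl : a = 46 := by_contra fun k => ha (by simp [he2, k])
    rw [pw_neg]; omega
  have q1 := hd e1 ((mem_Q om).2 (by simp [he1]))
  have q2 := hd e2 ((mem_Q om).2 (by simp [he2]))
  have a1 := (mem_Q om).1 q1.1
  have a2 := (mem_Q om).1 q2.1
  rw [← he1, ← he2] at a1 a2
  generalize d e1 6 = α at a1
  generalize d e1 46 = β at a1
  generalize d e2 6 = u at a2
  generalize d e2 46 = δ at a2
  have b1 := q1.2
  have b2 := q2.2
  rw [a1, map_add, map_smul, map_smul, a1, a2] at b1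
  rw [a2, map_add, map_smul, map_smul, a1, a2] at b2
  have c1 := congrFun b1 6
  have c2 := congrFun b2 46
  simp [he1, he2] at c1 c2
  have two : (2 : L.K) = 0 := CharTwo.two_eq_zero
  have c3 : δ = α := by
    have : (δ + α) ^ 2 = 0 := by linear_combination c1 + c2 + (α * δ - β * u + 1) * two
    linear_combination ((pow_eq_zero_iff two_ne_zero).1 this) - α * two
  subst c3
  suffices H : ∃ z : L.G, Ok (R z) ∧ R z e1 = d e1 ∧ R z e2 = d e2 by
    obtain ⟨z, o, k1, k2⟩ := H
    refine ⟨z, GX3.cs L hx ht om o.1, GX3.cs L hx ht om o.2.1, fun v hv => ?_, o.2.2.1, o.2.2.2⟩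
    rw [(mem_Q om).1 hv, map_add, map_add, map_smul, map_smul, map_smul, map_smul, ← he1, ← he2,
      k1, k2]
  by_cases hu : u = 0
  · subst hu
    have : δ = 1 := by
      have : (δ + 1) ^ 2 = 0 := by linear_combination c1 + (δ + 1) * two
      linear_combination ((pow_eq_zero_iff two_ne_zero).1 this) - two
    subst this
    refine ⟨L.ρ.x (cE7.neg γ) β, by rw [hx]; exact okx _ _ (Or.inr rfl), ?_, ?_⟩
    · simp [hx, a1, m1']
    · simp [hx, a2, m2']
  · obtain ⟨t, rfl⟩ : ∃ t, δ = 1 + t * u := ⟨(δ - 1) / u, by field_simp; ring⟩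
    have hβ : β = t * t * u := mul_right_cancel₀ hu (by
      linear_combination c1 - (t * u + t * t * u * u) * two)
    refine ⟨L.ρ.x (cE7.neg γ) t * L.ρ.x γ u * L.ρ.x (cE7.neg γ) t, ?_, ?_, ?_⟩
    · rw [map_mul, map_mul, hx, hx]
      exact okm (okm (okx _ _ (Or.inr rfl)) (okx _ _ (Or.inl rfl))) (okx _ _ (Or.inr rfl))
    · simp only [map_mul, hx, a1, End.mul_apply, LinearMap.add_apply, LinearMap.smul_apply,
        End.one_apply, map_add, map_smul, m1', m2', p1', p2', hβ, map_zero, smul_zero, add_zero]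
      linear_combination (norm := module) (t * two) • e2
    · simp only [map_mul, hx, a2, End.mul_apply, LinearMap.add_apply, LinearMap.smul_apply,
        End.one_apply, map_add, map_smul, m1', m2', p1', p2', map_zero, smul_zero, add_zero]
      module

end CF.Ao.Gp
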