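import Cfsg.Agent.Ao.GA
import Cfsg.Agent.BN.LangS
import Cfsg.Agent.ExA.B

/-! Standard position of elements of order three with fixed space of dimension `32`. -/

set_option autoImplicit false

namespace CF.Ao.Gp

open Module Function Equiv Equiv.Perm CF.E83 CF.Al

namespace GX4

open CF.Chev CF.BN CF.ExA CF.E72 Cfsg.Lie Matrix Finset

/-- A simple reflection. -/
def sr (i : ℕ) (y : List ℤ) : List ℤ :=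
  (List.range 7).map fun k => if k = i then y.getD k 0 - dotL (cmE7.getD i []) y else y.getD k 0

/-- A word. -/
noncomputable def act : List ℕ → List ℤ → List ℤ
  | [], y => y
  | i :: w, y => forceL (sr i y) (act w)

/-- The number of weights that vanish modulo three. -/
def cnt (y : List ℤ) : ℕ := w56.countP fun μ => dotL y μ % 3 == 0

/-- Congruence to a unit vector. -/
def eqU (j : ℕ) (y : List ℤ) : Bool :=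
  (List.range 7).all fun k => (y.getD k 0 - if k = j then 1 else 0) % 3 == 0

/-- The words. -/
def tab : List (List ℤ × List ℕ × List ℕ) := [
  ([0, 0, 0, 0, 0, 0, 1], [5, 6, 4, 5, 3, 4, 2, 3, 0, 2], [5, 6, 4, 5, 3, 4, 1, 3]), ([0, 0, 0, 0,
  0, 0, 2], [5, 6, 4, 5, 3, 4, 2, 3, 0, 2, 0], [5, 6, 4, 5, 3, 4, 1, 3, 1]), ([0, 0, 0, 0, 0, 1, 0],
  [4, 5, 3, 4, 2, 3, 0, 2], [4, 5, 3, 4, 1, 3]), ([0, 0, 0, 0, 0, 1, 1], [6, 4, 5, 3, 4, 2, 3, 0,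
  2], [6, 4, 5, 3, 4, 1, 3]), ([0, 0, 0, 0, 0, 2, 0], [4, 5, 3, 4, 2, 3, 0, 2, 0], [4, 5, 3, 4, 1,
  3, 1]), ([0, 0, 0, 0, 0, 2, 2], [6, 4, 5, 3, 4, 2, 3, 0, 2, 0], [6, 4, 5, 3, 4, 1, 3, 1]), ([0, 0,
  0, 0, 1, 0, 0], [3, 4, 2, 3, 0, 2], [3, 4, 1, 3]), ([0, 0, 0, 0, 1, 1, 0], [5, 3, 4, 2, 3, 0, 2],
  [5, 3, 4, 1, 3]), ([0, 0, 0, 0, 1, 1, 1], [6, 5, 3, 4, 2, 3, 0, 2], [6, 5, 3, 4, 1, 3]), ([0, 0,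
  0, 0, 2, 0, 0], [3, 4, 2, 3, 0, 2, 0], [3, 4, 1, 3, 1]), ([0, 0, 0, 0, 2, 2, 0], [5, 3, 4, 2, 3,
  0, 2, 0], [5, 3, 4, 1, 3, 1]), ([0, 0, 0, 0, 2, 2, 2], [6, 5, 3, 4, 2, 3, 0, 2, 0], [6, 5, 3, 4,
  1, 3, 1]), ([0, 0, 0, 1, 0, 0, 0], [2, 3, 0, 2], [1, 3]), ([0, 0, 0, 1, 1, 0, 0], [4, 2, 3, 0, 2],
  [4, 1, 3]), ([0, 0, 0, 1, 1, 1, 0], [5, 4, 2, 3, 0, 2], [5, 4, 1, 3]), ([0, 0, 0, 1, 1, 1, 1], [6,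
  5, 4, 2, 3, 0, 2], [6, 5, 4, 1, 3]), ([0, 0, 0, 2, 0, 0, 0], [2, 3, 0, 2, 0], [1, 3, 1]), ([0, 0,
  0, 2, 2, 0, 0], [4, 2, 3, 0, 2, 0], [4, 1, 3, 1]), ([0, 0, 0, 2, 2, 2, 0], [5, 4, 2, 3, 0, 2, 0],
  [5, 4, 1, 3, 1]), ([0, 0, 0, 2, 2, 2, 2], [6, 5, 4, 2, 3, 0, 2, 0], [6, 5, 4, 1, 3, 1]), ([0, 0,
  1, 0, 0, 0, 0], [0, 2], []), ([0, 0, 1, 1, 0, 0, 0], [3, 0, 2], []), ([0, 0, 1, 1, 1, 0, 0], [4,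
  3, 0, 2], []), ([0, 0, 1, 1, 1, 1, 0], [5, 4, 3, 0, 2], []), ([0, 0, 1, 1, 1, 1, 1], [6, 5, 4, 3,
  0, 2], []), ([0, 0, 2, 0, 0, 0, 0], [0, 2, 0], []), ([0, 0, 2, 2, 0, 0, 0], [3, 0, 2, 0], []),
  ([0, 0, 2, 2, 2, 0, 0], [4, 3, 0, 2, 0], []), ([0, 0, 2, 2, 2, 2, 0], [5, 4, 3, 0, 2, 0], []),
  ([0, 0, 2, 2, 2, 2, 2], [6, 5, 4, 3, 0, 2, 0], []), ([0, 1, 0, 0, 0, 0, 0], [3, 2, 1, 3, 0, 2],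
  []), ([0, 1, 0, 1, 0, 0, 0], [2, 1, 3, 0, 2], [3]), ([0, 1, 0, 1, 1, 0, 0], [4, 2, 1, 3, 0, 2],
  [4, 3]), ([0, 1, 0, 1, 1, 1, 0], [5, 4, 2, 1, 3, 0, 2], [5, 4, 3]), ([0, 1, 0, 1, 1, 1, 1], [6, 5,
  4, 2, 1, 3, 0, 2], [6, 5, 4, 3]), ([0, 1, 1, 1, 0, 0, 0], [1, 3, 0, 2], []), ([0, 1, 1, 1, 1, 0,
  0], [4, 1, 3, 0, 2], []), ([0, 1, 1, 1, 1, 1, 0], [5, 4, 1, 3, 0, 2], []), ([0, 1, 1, 1, 1, 1, 1],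
  [6, 5, 4, 1, 3, 0, 2], []), ([0, 1, 1, 2, 1, 0, 0], [3, 4, 1, 3, 0, 2], []), ([0, 1, 1, 2, 1, 1,
  0], [5, 3, 4, 1, 3, 0, 2], []), ([0, 1, 1, 2, 1, 1, 1], [6, 5, 3, 4, 1, 3, 0, 2], []), ([0, 1, 1,
  2, 2, 1, 0], [4, 5, 3, 4, 1, 3, 0, 2], []), ([0, 1, 1, 2, 2, 1, 1], [6, 4, 5, 3, 4, 1, 3, 0, 2],
  []), ([0, 1, 1, 2, 2, 2, 1], [5, 6, 4, 5, 3, 4, 1, 3, 0, 2], []), ([0, 2, 0, 0, 0, 0, 0], [3, 2,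
  1, 3, 0, 2, 0], [1]), ([0, 2, 0, 2, 0, 0, 0], [2, 1, 3, 0, 2, 0], [3, 1]), ([0, 2, 0, 2, 2, 0, 0],
  [4, 2, 1, 3, 0, 2, 0], [4, 3, 1]), ([0, 2, 0, 2, 2, 2, 0], [5, 4, 2, 1, 3, 0, 2, 0], [5, 4, 3,
  1]), ([0, 2, 0, 2, 2, 2, 2], [6, 5, 4, 2, 1, 3, 0, 2, 0], [6, 5, 4, 3, 1]), ([0, 2, 2, 1, 1, 1,
  2], [5, 6, 4, 5, 3, 4, 1, 3, 0, 2, 0], []), ([0, 2, 2, 1, 1, 2, 0], [4, 5, 3, 4, 1, 3, 0, 2, 0],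
  []), ([0, 2, 2, 1, 1, 2, 2], [6, 4, 5, 3, 4, 1, 3, 0, 2, 0], []), ([0, 2, 2, 1, 2, 0, 0], [3, 4,
  1, 3, 0, 2, 0], []), ([0, 2, 2, 1, 2, 2, 0], [5, 3, 4, 1, 3, 0, 2, 0], []), ([0, 2, 2, 1, 2, 2,
  2], [6, 5, 3, 4, 1, 3, 0, 2, 0], []), ([0, 2, 2, 2, 0, 0, 0], [1, 3, 0, 2, 0], []), ([0, 2, 2, 2,
  2, 0, 0], [4, 1, 3, 0, 2, 0], []), ([0, 2, 2, 2, 2, 2, 0], [5, 4, 1, 3, 0, 2, 0], []), ([0, 2, 2,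
  2, 2, 2, 2], [6, 5, 4, 1, 3, 0, 2, 0], []), ([1, 0, 0, 0, 0, 0, 0], [], []), ([1, 0, 1, 0, 0, 0,
  0], [2], []), ([1, 0, 1, 1, 0, 0, 0], [3, 2], []), ([1, 0, 1, 1, 1, 0, 0], [4, 3, 2], []), ([1, 0,
  1, 1, 1, 1, 0], [5, 4, 3, 2], []), ([1, 0, 1, 1, 1, 1, 1], [6, 5, 4, 3, 2], []), ([1, 1, 0, 2, 0,
  1, 2], [0, 2, 3, 4, 5, 6, 1, 3, 4, 5, 2, 3, 4, 1, 3, 2, 0], []), ([1, 1, 1, 1, 0, 0, 0], [1, 3,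
  2], []), ([1, 1, 1, 1, 1, 0, 0], [4, 1, 3, 2], []), ([1, 1, 1, 1, 1, 1, 0], [5, 4, 1, 3, 2], []),
  ([1, 1, 1, 1, 1, 1, 1], [6, 5, 4, 1, 3, 2], []), ([1, 1, 1, 2, 1, 0, 0], [3, 4, 1, 3, 2], []),
  ([1, 1, 1, 2, 1, 1, 0], [5, 3, 4, 1, 3, 2], []), ([1, 1, 1, 2, 1, 1, 1], [6, 5, 3, 4, 1, 3, 2],
  []), ([1, 1, 1, 2, 2, 1, 0], [4, 5, 3, 4, 1, 3, 2], []), ([1, 1, 1, 2, 2, 1, 1], [6, 4, 5, 3, 4,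
  1, 3, 2], []), ([1, 1, 1, 2, 2, 2, 1], [5, 6, 4, 5, 3, 4, 1, 3, 2], []), ([1, 1, 2, 0, 0, 2, 1],
  [4, 5, 6, 3, 4, 5, 2, 3, 4, 1, 3, 2], [4, 5, 6, 2, 3, 0, 2, 1, 3, 4, 5, 3, 2, 1, 3, 4, 0, 2, 1,
  3]), ([1, 1, 2, 0, 2, 1, 0], [3, 4, 5, 2, 3, 4, 1, 3, 2], [2, 3, 0, 2, 1, 3, 4, 5, 3, 2, 1, 3, 4,
  0, 2, 1, 3]), ([1, 1, 2, 0, 2, 1, 1], [6, 3, 4, 5, 2, 3, 4, 1, 3, 2], [6, 2, 3, 0, 2, 1, 3, 4, 5,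
  3, 2, 1, 3, 4, 0, 2, 1, 3]), ([1, 1, 2, 0, 2, 2, 1], [5, 6, 3, 4, 5, 2, 3, 4, 1, 3, 2], [5, 6, 2,
  3, 0, 2, 1, 3, 4, 5, 3, 2, 1, 3, 4, 0, 2, 1, 3]), ([1, 1, 2, 2, 1, 0, 0], [2, 3, 4, 1, 3, 2], [5,
  4, 2, 3, 0, 2, 1, 3, 4, 5, 3, 0, 2, 1, 3, 4, 0, 2, 1, 3]), ([1, 1, 2, 2, 1, 1, 0], [5, 2, 3, 4, 1,
  3, 2], [4, 2, 3, 0, 2, 1, 3, 4, 5, 3, 0, 2, 1, 3, 4, 0, 2, 1, 3]), ([1, 1, 2, 2, 1, 1, 1], [6, 5,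
  2, 3, 4, 1, 3, 2], [6, 4, 2, 3, 0, 2, 1, 3, 4, 5, 3, 0, 2, 1, 3, 4, 0, 2, 1, 3]), ([1, 1, 2, 2, 2,
  1, 0], [4, 5, 2, 3, 4, 1, 3, 2], [2, 3, 0, 2, 1, 3, 4, 5, 3, 0, 2, 1, 3, 4, 0, 2, 1, 3]), ([1, 1,
  2, 2, 2, 1, 1], [6, 4, 5, 2, 3, 4, 1, 3, 2], [6, 2, 3, 0, 2, 1, 3, 4, 5, 3, 0, 2, 1, 3, 4, 0, 2,
  1, 3]), ([1, 1, 2, 2, 2, 2, 1], [5, 6, 4, 5, 2, 3, 4, 1, 3, 2], [5, 6, 2, 3, 0, 2, 1, 3, 4, 5, 3,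
  0, 2, 1, 3, 4, 0, 2, 1, 3]), ([1, 2, 0, 1, 0, 2, 1], [2, 3, 4, 5, 6, 1, 3, 4, 5, 2, 3, 4, 1, 3,
  2], []), ([1, 2, 2, 0, 0, 2, 1], [4, 5, 6, 1, 3, 4, 5, 2, 3, 4, 1, 3, 2], [4, 5, 6, 2, 3, 0, 2, 1,
  3, 4, 5, 3, 2, 1, 3, 4, 0, 2, 3]), ([1, 2, 2, 0, 2, 1, 0], [1, 3, 4, 5, 2, 3, 4, 1, 3, 2], [2, 3,
  0, 2, 1, 3, 4, 5, 3, 2, 1, 3, 4, 0, 2, 3]), ([1, 2, 2, 0, 2, 1, 1], [6, 1, 3, 4, 5, 2, 3, 4, 1, 3,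
  2], [6, 2, 3, 0, 2, 1, 3, 4, 5, 3, 2, 1, 3, 4, 0, 2, 3]), ([1, 2, 2, 0, 2, 2, 1], [5, 6, 1, 3, 4,
  5, 2, 3, 4, 1, 3, 2], [5, 6, 2, 3, 0, 2, 1, 3, 4, 5, 3, 2, 1, 3, 4, 0, 2, 3]), ([1, 2, 2, 1, 0, 2,
  1], [3, 4, 5, 6, 1, 3, 4, 5, 2, 3, 4, 1, 3, 2], [3, 4, 5, 6, 2, 3, 0, 2, 1, 3, 4, 5, 3, 2, 1, 3,
  4, 0, 2, 3]), ([2, 0, 0, 0, 0, 0, 0], [0], []), ([2, 0, 2, 0, 0, 0, 0], [2, 0], []), ([2, 0, 2, 2,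
  0, 0, 0], [3, 2, 0], []), ([2, 0, 2, 2, 2, 0, 0], [4, 3, 2, 0], []), ([2, 0, 2, 2, 2, 2, 0], [5,
  4, 3, 2, 0], []), ([2, 0, 2, 2, 2, 2, 2], [6, 5, 4, 3, 2, 0], []), ([2, 1, 0, 2, 0, 1, 2], [2, 3,
  4, 5, 6, 1, 3, 4, 5, 2, 3, 4, 1, 3, 2, 0], []), ([2, 1, 1, 0, 0, 1, 2], [4, 5, 6, 1, 3, 4, 5, 2,
  3, 4, 1, 3, 2, 0], [4, 5, 6, 2, 3, 0, 2, 1, 3, 4, 5, 3, 2, 1, 3, 4, 0, 2, 3, 1]), ([2, 1, 1, 0, 1,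
  1, 2], [5, 6, 1, 3, 4, 5, 2, 3, 4, 1, 3, 2, 0], [5, 6, 2, 3, 0, 2, 1, 3, 4, 5, 3, 2, 1, 3, 4, 0,
  2, 3, 1]), ([2, 1, 1, 0, 1, 2, 0], [1, 3, 4, 5, 2, 3, 4, 1, 3, 2, 0], [2, 3, 0, 2, 1, 3, 4, 5, 3,
  2, 1, 3, 4, 0, 2, 3, 1]), ([2, 1, 1, 0, 1, 2, 2], [6, 1, 3, 4, 5, 2, 3, 4, 1, 3, 2, 0], [6, 2, 3,
  0, 2, 1, 3, 4, 5, 3, 2, 1, 3, 4, 0, 2, 3, 1]), ([2, 1, 1, 2, 0, 1, 2], [3, 4, 5, 6, 1, 3, 4, 5, 2,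
  3, 4, 1, 3, 2, 0], [3, 4, 5, 6, 2, 3, 0, 2, 1, 3, 4, 5, 3, 2, 1, 3, 4, 0, 2, 3, 1]), ([2, 2, 0, 1,
  0, 2, 1], [0, 2, 3, 4, 5, 6, 1, 3, 4, 5, 2, 3, 4, 1, 3, 2], []), ([2, 2, 1, 0, 0, 1, 2], [4, 5, 6,
  3, 4, 5, 2, 3, 4, 1, 3, 2, 0], [4, 5, 6, 2, 3, 0, 2, 1, 3, 4, 5, 3, 2, 1, 3, 4, 0, 2, 1, 3, 1]),
  ([2, 2, 1, 0, 1, 1, 2], [5, 6, 3, 4, 5, 2, 3, 4, 1, 3, 2, 0], [5, 6, 2, 3, 0, 2, 1, 3, 4, 5, 3, 2,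
  1, 3, 4, 0, 2, 1, 3, 1]), ([2, 2, 1, 0, 1, 2, 0], [3, 4, 5, 2, 3, 4, 1, 3, 2, 0], [2, 3, 0, 2, 1,
  3, 4, 5, 3, 2, 1, 3, 4, 0, 2, 1, 3, 1]), ([2, 2, 1, 0, 1, 2, 2], [6, 3, 4, 5, 2, 3, 4, 1, 3, 2,
  0], [6, 2, 3, 0, 2, 1, 3, 4, 5, 3, 2, 1, 3, 4, 0, 2, 1, 3, 1]), ([2, 2, 1, 1, 1, 1, 2], [5, 6, 4,
  5, 2, 3, 4, 1, 3, 2, 0], [5, 6, 2, 3, 0, 2, 1, 3, 4, 5, 3, 0, 2, 1, 3, 4, 0, 2, 1, 3, 1]), ([2, 2,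
  1, 1, 1, 2, 0], [4, 5, 2, 3, 4, 1, 3, 2, 0], [2, 3, 0, 2, 1, 3, 4, 5, 3, 0, 2, 1, 3, 4, 0, 2, 1,
  3, 1]), ([2, 2, 1, 1, 1, 2, 2], [6, 4, 5, 2, 3, 4, 1, 3, 2, 0], [6, 2, 3, 0, 2, 1, 3, 4, 5, 3, 0,
  2, 1, 3, 4, 0, 2, 1, 3, 1]), ([2, 2, 1, 1, 2, 0, 0], [2, 3, 4, 1, 3, 2, 0], [5, 4, 2, 3, 0, 2, 1,
  3, 4, 5, 3, 0, 2, 1, 3, 4, 0, 2, 1, 3, 1]), ([2, 2, 1, 1, 2, 2, 0], [5, 2, 3, 4, 1, 3, 2, 0], [4,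
  2, 3, 0, 2, 1, 3, 4, 5, 3, 0, 2, 1, 3, 4, 0, 2, 1, 3, 1]), ([2, 2, 1, 1, 2, 2, 2], [6, 5, 2, 3, 4,
  1, 3, 2, 0], [6, 4, 2, 3, 0, 2, 1, 3, 4, 5, 3, 0, 2, 1, 3, 4, 0, 2, 1, 3, 1]), ([2, 2, 2, 1, 1, 1,
  2], [5, 6, 4, 5, 3, 4, 1, 3, 2, 0], []), ([2, 2, 2, 1, 1, 2, 0], [4, 5, 3, 4, 1, 3, 2, 0], []),
  ([2, 2, 2, 1, 1, 2, 2], [6, 4, 5, 3, 4, 1, 3, 2, 0], []), ([2, 2, 2, 1, 2, 0, 0], [3, 4, 1, 3, 2,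
  0], []), ([2, 2, 2, 1, 2, 2, 0], [5, 3, 4, 1, 3, 2, 0], []), ([2, 2, 2, 1, 2, 2, 2], [6, 5, 3, 4,
  1, 3, 2, 0], []), ([2, 2, 2, 2, 0, 0, 0], [1, 3, 2, 0], []), ([2, 2, 2, 2, 2, 0, 0], [4, 1, 3, 2,
  0], []), ([2, 2, 2, 2, 2, 2, 0], [5, 4, 1, 3, 2, 0], []), ([2, 2, 2, 2, 2, 2, 2], [6, 5, 4, 1, 3,
  2, 0], [])]

/-- The check at one vector. -/
noncomputable def chk (a : ℤ) (t : List ℤ) : Bool :=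
  cnt (a :: t) != 32 || tab.any fun e => e.1 == a :: t && eqU 0 (act e.2.1 (a :: t)) &&
    (cnt ((1 + a) :: t) != cnt ((1 + 2 * a) :: t.map (2 * ·)) ||
      eqU 0 (act e.2.2 [1, 0, 0, 0, 0, 0, 0]) && eqU 1 (act e.2.2 (a :: t)))

theorem chk_all : allLt 3 fun a => allLt 3 fun b => allLt 3 fun c => allLt 3 fun d =>
    allLt 3 fun e => allLt 3 fun f => allLt 3 fun g =>
      forceL [(b : ℤ), c, d, e, f, g] fun t => chk a t := by decide +kernel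

section
variable {K G : Type*} [Field K] [Group G] {ρ : StRep cE7 K G} (h : Univ ρ) (u : Kˣ)

/-- The torus element with given exponents. -/
noncomputable def T (y : List ℤ) : G := h.r3.tor fun i => u ^ fn 7 y i

theorem fn_map (f : ℕ → ℤ) (k : Fin 7) : fn 7 ((List.range 7).map f) k = f k := by
  rw [fn, List.getD_eq_getElem _ _ (by simp)]; simp

theorem sr_conj (i : ℕ) : ∃ g, ∀ y, T h u (sr i y) = g * T h u y * g⁻¹ := by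
  by_cases hi : i < 7
  · obtain ⟨n, hn⟩ := ρ.exists_nW (cE7.sref_mem_W ⟨i, hi⟩)
    refine ⟨n, fun y => ?_⟩
    rw [T, T, conj_tor h.r3 hn.acts, mp_zpow]
    refine congrArg _ (funext fun k => congrArg _ ?_)
    have h1 : ∀ i : Fin 7, cmE7.getD i [] = List.ofFn fun j : Fin 7 => (cmE7.getD j []).getD i 0 := by
      decide +kernel
    rw [sr, fn_map, h1 ⟨i, hi⟩, dotL_ofFn]
    simp only [mulVec, dotProduct, Mw_sref_apply, show ∀ i j, cE7.car i j = _ from carE7, sub_mul,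
      sum_sub_distrib, ite_mul, one_mul, zero_mul, sum_ite_eq, mem_univ, if_true, Fin.ext_iff (b := ⟨i, hi⟩)]
    split_ifs <;> simp [fn]
  · refine ⟨1, fun y => ?_⟩
    rw [one_mul, inv_one, mul_one]
    rw [T, T]
    exact congrArg _ (funext fun k => by rw [sr, fn_map, if_neg (by omega)]; rfl)

theorem act_conj (w : List ℕ) : ∃ g, ∀ y, T h u (act w y) = g * T h u y * g⁻¹ := by
  induction' w with i w ih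
  · exact ⟨1, fun y => by simp [act]⟩
  obtain ⟨g, hg⟩ := ih
  obtain ⟨n, hn⟩ := sr_conj h u i
  exact ⟨g * n, fun y => by rw [act, forceL_eq, hg, hn]; group⟩

variable {u} (hu : orderOf u = 3)
include hu

theorem T_eq (j : Fin 7) {y : List ℤ} (e : eqU j y) : T h u y = h.r3.tor (Pi.mulSingle j u) := by
  rw [T]
  refine congrArg _ (funext fun k => ?_)
  have h1 := List.all_eq_true.1 e k (by simp)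
  have h2 : (Pi.mulSingle j u : Fin 7 → Kˣ) k = u ^ (if (k : ℕ) = j then 1 else 0 : ℤ) := by
    rw [Pi.mulSingle_apply]
    by_cases x : k = j
    · rw [if_pos x, if_pos (congrArg _ x), zpow_one]
    · rw [if_neg x, if_neg fun y => x (Fin.ext y), zpow_zero]
  rw [h2, zpow_eq_zpow_iff_modEq, hu]
  exact (Int.modEq_iff_dvd.2 (Int.dvd_of_emod_eq_zero (beq_iff_eq.1 h1))).symm

theorem coord {c : Fin 7 → Kˣ} (e : h.r3.tor c ^ 3 = 1) :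
    ∃ a t, t.length = 6 ∧ chk a t ∧ h.r3.tor c = T h u (a :: t) := by
  have h1 : c ^ 3 = 1 := h.inj (by rw [map_pow, e, map_one])
  choose y h2 hy using fun i => (hu ▸ IsPrimitiveRoot.orderOf u : IsPrimitiveRoot u 3
    ).eq_pow_of_mem_rootsOfUnity (ξ := c i) (congrFun h1 i)
  have h3 := chk_all
  simp only [allLt_iff, forceL_eq] at h3
  refine ⟨_, _, rfl, h3 _ (h2 0) _ (h2 1) _ (h2 2) _ (h2 3) _ (h2 4) _ (h2 5) _ (h2 6),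
    congrArg _ (funext fun i => ?_)⟩
  rw [← hy, ← zpow_natCast]
  fin_cases i <;> rfl

variable {R : G →* End K (Fin 56 → K)} (ht : ∀ c a, R (h.r3.tor c) (Pi.single a 1) =
    ((∏ i, c i ^ wt a i : Kˣ) : K) • (Pi.single a 1 : Fin 56 → K))
include ht

theorem dm_T {y : List ℤ} (hy : y.length = 7) : dm R (T h u y) = cnt y := by
  classical
  have h1 : fs (R (T h u y)) = (R (T h u y)).eigenspace 1 := by ext v; simp [mem_fs]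
  have h2 : List.ofFn (fn 7 y) = y := List.ext_getElem (by simp [hy]) fun i a b => by
    rw [List.getElem_ofFn, fn, List.getD_eq_getElem _ _ b]
  have h3 := congrArg (Multiset.countP fun μ => (∑ i, fn 7 y i * μ i) % 3 = 0) wts_w56
  rw [wts, Multiset.coe_countP, List.countP_map, Multiset.countP_map] at h3
  rw [dm, h1, finrank_eig (Pi.basisFun K _) (fun a => by simpa [T] using ht _ a), cnt]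
  refine Eq.trans (congrArg card (filter_congr fun a _ => ?_)) (h3.symm.trans ?_)
  · simp only [← Units.val_zpow_eq_zpow_val, ← Units.coe_prod, Units.val_eq_one, ← _root_.zpow_mul,
      ← zpow_sum', ← orderOf_dvd_iff_zpow_eq_one, hu, Int.dvd_iff_emod_eq_zero]
    rfl
  · refine List.countP_congr fun μ _ => ?_
    conv_rhs => rw [← h2, dotL_ofFn]
    simp

theorem step {g x c : G} (k : g⁻¹ * x * g ∈ ρ.H) (k' : g⁻¹ * c * g ∈ ρ.H) (e : x ^ 3 = 1)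
    (e' : c ^ 3 = 1) (d : dm R x = 32) :
    ∃ g b, x = g * h.r3.tor (Pi.mulSingle 0 u) * g⁻¹ ∧ c = g * h.r3.tor b * g⁻¹ := by
  obtain ⟨b, h1⟩ := h.r3.range_tor.ge k
  obtain ⟨b', h2⟩ := h.r3.range_tor.ge k'
  obtain ⟨a, t, h3, h4, h5⟩ := coord h hu (c := b) (by rw [h1, inv_conj_pow, e]; simp)
  obtain ⟨a', t', -, -, h6⟩ := coord h hu (c := b') (by rw [h2, inv_conj_pow, e']; simp)
  have h7 : cnt (a :: t) = 32 := by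
    rw [← dm_T h hu ht (by simp [h3]), ← h5, h1, ← d]
    exact dm_conj (isConj_iff.2 ⟨g, by group⟩)
  simp only [chk, h7, bne_self_eq_false, Bool.false_or, List.any_eq_true, Bool.and_eq_true] at h4
  obtain ⟨w, -, ⟨-, h8⟩, -⟩ := h4
  obtain ⟨n, hn⟩ := act_conj h u w.2.1
  refine ⟨g * n⁻¹, fun i => u ^ fn 7 (act w.2.1 (a' :: t')) i, ?_, ?_⟩
  · rw [← T_eq h hu 0 h8, hn, ← h5, h1]; group
  · change c = _ * T h u _ * _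
    rw [hn, ← h6, h2]; group

theorem step2 {b : Fin 7 → Kˣ} (e : h.r3.tor b ^ 3 = 1) (d : dm R (h.r3.tor b) = 32)
    (d' : dm R (h.r3.tor (Pi.mulSingle 0 u) * h.r3.tor b) =
      dm R (h.r3.tor (Pi.mulSingle 0 u) * h.r3.tor b ^ 2)) :
    ∃ g, h.r3.tor (Pi.mulSingle 0 u) = g * h.r3.tor (Pi.mulSingle 0 u) * g⁻¹ ∧
      h.r3.tor (Pi.mulSingle 1 u) = g * h.r3.tor b * g⁻¹ := by
  obtain ⟨a, t, h3, h4, h5⟩ := coord h hu e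
  have h1 : h.r3.tor (Pi.mulSingle 0 u) * T h u (a :: t) = T h u ((1 + a) :: t) := by
    rw [T, T, ← map_mul]
    refine congrArg _ (funext fun i => ?_)
    refine Fin.cases ?_ (fun i => ?_) i <;> simp [fn, _root_.zpow_add]
  have h2 : h.r3.tor (Pi.mulSingle 0 u) * T h u (a :: t) ^ 2 =
      T h u ((1 + 2 * a) :: t.map (2 * ·)) := by
    rw [T, T, ← map_pow, ← map_mul]
    refine congrArg _ (funext fun i => ?_)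
    refine Fin.cases ?_ (fun i => ?_) i
    · simp [fn, _root_.zpow_add, two_mul, sq]
    · cases k : t[i.1]? <;> simp [fn, k, _root_.zpow_add, two_mul, sq]
  rw [h5, h1, h2, dm_T h hu ht (by simp [h3]), dm_T h hu ht (by simp [h3])] at d'
  rw [h5, dm_T h hu ht (by simp [h3])] at d
  simp only [chk, d, d', bne_self_eq_false, Bool.false_or, List.any_eq_true, Bool.and_eq_true] at h4
  obtain ⟨w, -, -, h7, h8⟩ := h4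
  obtain ⟨n, hn⟩ := act_conj h u w.2.2
  refine ⟨n, ?_, by rw [← T_eq h hu 1 h8, hn, h5]⟩
  rw [← T_eq h hu 0 (y := [1, 0, 0, 0, 0, 0, 0]) (by decide), ← hn, T_eq h hu 0 h7,
    T_eq h hu 0 (by decide)]

end

theorem ord {K : Type*} [Field K] [CharP K 2] {ω : Kˣ} (om : (ω : K) ^ 2 + ω + 1 = 0) :
    orderOf ω = 3 := by
  refine orderOf_eq_prime (Units.ext ?_) ?_
  · rw [Units.val_pow_eq_pow_val, Units.val_one]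
    linear_combination ((ω : K) - 1) * om
  · rintro rfl
    rw [Units.val_one, one_pow, CharTwo.add_self_eq_zero, zero_add] at om
    exact one_ne_zero om

end GX4

section
open CF.Chev CF.BN CF.ExA CF.E72 Cfsg.Lie
variable {q z : ℕ} {X : Type*} [Group X] [Finite X] (L : LS cE7 1 2 q z X)
  {R : L.G →* End L.K (Fin 56 → L.K)} (hx : ∀ r t, R (L.ρ.x r t) = 1 + t • eV L.K r)
  (ht : ∀ c a, R (L.h.r3.tor c) (Pi.single a 1) =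
    ((∏ i, c i ^ wt a i : L.Kˣ) : L.K) • (Pi.single a 1 : Fin 56 → L.K))
  {ω : L.Kˣ} (om : (ω : L.K) ^ 2 + ω + 1 = 0)
include hx ht om

omit [Finite X] hx in
theorem GX4.std0 {x c : L.G} (hs : L.T.σ x = x) (hs' : L.T.σ c = c) (e : x ^ 3 = 1) (e' : c ^ 3 = 1)
    (k : Commute x c) (d : dm R x = 32) :
    ∃ g b, x = g * L.h.r3.tor (Pi.mulSingle 0 ω) * g⁻¹ ∧ c = g * L.h.r3.tor b * g⁻¹ := by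
  obtain ⟨g, hg⟩ := toral_pair L.big (L.frob.mem_Alg hs) (L.frob.mem_Alg hs') k
    (Nat.Coprime.coprime_dvd_left (orderOf_dvd_of_pow_eq_one e') (by norm_num)) (a := 1)
    Nat.prime_three (by norm_num) e
  exact GX4.step L.h (GX4.ord om) ht (hg x (by simp)) (hg c (by simp)) e e' d

set_option linter.unusedSectionVars false in
theorem std1 {x : L.G} (hs : L.T.σ x = x) (e : x ^ 3 = 1) (d : dm R x = 32) :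
    ∃ g, x = g * L.h.r3.tor (Pi.mulSingle 0 ω) * g⁻¹ :=
  let ⟨g, _, h, _⟩ := GX4.std0 L ht om hs hs e e (.refl x) d
  ⟨g, h⟩

set_option linter.unusedSectionVars false in
theorem std2 {x c : L.G} (hs : L.T.σ x = x) (hs' : L.T.σ c = c) (e : x ^ 3 = 1) (e' : c ^ 3 = 1)
    (k : Commute x c) (d : dm R x = 32) (d' : dm R c = 32) (d'' : dm R (x * c) = dm R (x * c ^ 2)) :
    ∃ g, x = g * L.h.r3.tor (Pi.mulSingle 0 ω) * g⁻¹ ∧ c = g * L.h.r3.tor (Pi.mulSingle 1 ω) * g⁻¹ := by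
  obtain ⟨g, b, rfl, rfl⟩ := GX4.std0 L ht om hs hs' e e' k d
  have h1 : ∀ y, dm R (g * y * g⁻¹) = dm R y := fun y => (dm_conj (isConj_iff.2 ⟨g, rfl⟩)).symm
  rw [conj_pow, conj_mul, conj_mul, h1, h1] at d''
  obtain ⟨n, h2, h3⟩ := GX4.step2 L.h (GX4.ord om) ht (b := b)
    (by rwa [conj_pow, conj_eq_one_iff] at e') (h1 _ ▸ d') d''
  refine ⟨g * n⁻¹, ?_, by rw [h3]; group⟩
  conv_rhs => rw [h2]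
  group

end

end CF.Ao.Gp
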