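import Cfsg.Agent.Am.R2
import Cfsg.Agent.ExA.E7

/-! The adjoint module, for any simply laced type and for `E₇`. -/

set_option autoImplicit false

namespace CF.Ao.R2

open Module Function Cfsg.Lie CF.E83 CF.Al CF.Chev CF.BN CF.ExA Matrix Sum Finset
open CF.Am (Sb Irr)

section
variable {B ι : Type} [Fintype B] [DecidableEq B] [Fintype ι] [DecidableEq ι] {C : ChevBasis B ι}

section
variable {K : Type*} [Field K] {G : Type*} [Group G] {ρ : StRep C K G} (h : Univ ρ)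
  {f : G →* GL (B ⊕ ι) K} (hf : ρ.IsAdHom f)

/-- The adjoint module. -/
noncomputable abbrev Ad (f : G →* GL (B ⊕ ι) K) : G →* End K (B ⊕ ι → K) :=
  en ((Units.coeHom _).comp f)

/-- The Lie bracket. -/
noncomputable abbrev bk (C : ChevBasis B ι) (K : Type*) [Field K] :
    (B ⊕ ι → K) →ₗ[K] (B ⊕ ι → K) →ₗ[K] (B ⊕ ι → K) :=
  (toLin' : Matrix _ _ K ≃ₗ[K] _).toLinearMap ∘ₗ C.ad K

theorem ad_apply (g : G) (v : B ⊕ ι → K) : Ad f g v = (f g).val *ᵥ v := en_apply _ _ _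

theorem bk_apply (u v : B ⊕ ι → K) : bk C K u v = C.ad K u *ᵥ v := rfl

include hf in
theorem ad_x (r : ι) (t : K) (v : B ⊕ ι → K) : Ad f (ρ.x r t) v = C.X r t *ᵥ v := by
  rw [ad_apply, hf, LieBasis.val_xG]

include hf in
theorem ad_bv (c : B → Kˣ) (a : B ⊕ ι) : Ad f (h.r3.tor c) (Pi.basisFun K _ a) =
    (a.elim (fun _ => 1) fun r => (rv C c r : K)) • Pi.basisFun K _ a := by
  rw [en_apply, Pi.basisFun_apply]
  change (f _).val *ᵥ _ = _
  rw [CF.Geom.Sm.ad_tor _ hf, LieBasis.val_tG]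
  refine (C.TM_bv _ a).trans (congrArg (· • _) ?_)
  rcases a with i | r
  · simp
  · rfl

include hf in
theorem dm_tor [DecidableEq K] (c : B → Kˣ) :
    dm (Ad f) (h.r3.tor c) = Fintype.card B + #{r | rv C c r = 1} := by
  rw [dm, (fs_eig _).1, finrank_eig _ (ad_bv h hf c), ← Fintype.card_subtype,
    Fintype.card_congr Equiv.subtypeSum, Fintype.card_sum, Fintype.card_subtype,
    Fintype.card_subtype]
  simp

include h hf in
theorem ad_cen {z : G} (hz : z ∈ Subgroup.center G) : Ad f z = 1 := by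
  obtain ⟨c, hc, rfl⟩ := h.mem_center_iff.1 hz
  refine (Pi.basisFun K _).ext fun a => (ad_bv h hf c a).trans ?_
  rcases a with i | r <;> simp [hc]

include h hf in
theorem ad_br (g : G) (u v : B ⊕ ι → K) : Ad f g (bk C K u v) = bk C K (Ad f g u) (Ad f g v) := by
  have : C.IsAut (f g).val := ρ.U_induction (p := fun g => C.IsAut (f g).val)
    (by rw [map_one]; exact C.isAut_one) (fun g r t _ _ ih => by
      rw [map_mul, Units.val_mul, hf, LieBasis.val_xG]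
      exact ih.mul (C.isAut_X r t)) (show g ∈ ρ.Gp from h.top ▸ Subgroup.mem_top _)
  rw [ad_apply, ad_apply, ad_apply]
  change (f g).val *ᵥ C.ad K u *ᵥ v = C.ad K ((f g).val *ᵥ u) *ᵥ ((f g).val *ᵥ v)
  rw [mulVec_mulVec, mulVec_mulVec, this]

theorem bk_alt (u : B ⊕ ι → K) : bk C K u u = 0 := Am.R2.ad_alt _ u

theorem key (hl : C.SameLen) (h1 : ∀ θ, ∃ a, C.A θ a = 1) (hC : C.Conn)
    {A : Submodule K (B ⊕ ι → K)} (hA : ∀ r, ∀ v ∈ A, C.X r 1 *ᵥ v ∈ A) (n : A ≠ ⊤)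
    {v : B ⊕ ι → K} (hv : v ∈ A) :
    (∀ s, v (inr s) = 0) ∧ ∀ j, ∑ i, v (inl i) * (C.car i j : K) = 0 := by
  have z : ∀ v ∈ A, ∀ s, v (inr s) = 0 := fun v hv s => by_contra fun e =>
    n (Ey.E1.top hl hA h1 hC (Ey.E1.ext hl hA h1 hv e))
  refine ⟨z v hv, fun j => ?_⟩
  have := z _ (hA (C.simple j) v hv) (C.simple j)
  rw [LieBasis.eq_sum_bv K v, Fintype.sum_sum_type] at this
  simpa [z v hv, mulVec_sum, mulVec_smul, LieBasis.X_inl, Finset.sum_apply, LieBasis.bv_apply,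
    C.vec_simple, C.sp_single] using this

end

variable {p q z : ℕ} [Fact p.Prime] {X : Type*} [Group X] (L : LS C 1 p q z X)
  {f : L.G →* GL (B ⊕ ι) L.K} (hf : L.ρ.IsAdHom f)

include hf in
theorem ad_fr (g : L.G) (v : B ⊕ ι → L.K) : Ad f (L.T.σ g) (L.φ ∘ v) = L.φ ∘ Ad f g v := by
  have h1 : f.comp L.T.σ = (GeneralLinearGroup.map L.φ).comp f :=
    StRep.hom_ext L.h.top fun r t => Units.ext (by
      rw [MonoidHom.comp_apply, MonoidHom.comp_apply, Am.R2.sx, hf, hf, ← L.φ_eq, LieBasis.val_xG,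
        ← LieBasis.X_map']
      rfl)
  rw [ad_apply, ad_apply, show f (L.T.σ g) = _ from DFunLike.congr_fun h1 g]
  exact funext fun a => (L.φ.map_mulVec _ _ a).symm

include hf in
theorem exists_l : ∃ l : X →* End L.K (B ⊕ ι → L.K), ∀ y : BN.Fx L.T.σ, l (L.θ y) = Ad f y := by
  have hk : L.θ.ker ≤ ((Ad f).comp (BN.Fx L.T.σ).subtype).toHomUnits.ker := fun g hg =>
    Units.ext (ad_cen L.h hf ((L.ker g).1 hg))
  exact ⟨(Units.coeHom _).comp (L.θ.liftOfSurjective L.surj ⟨_, hk⟩), fun y =>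
    congrArg Units.val (L.θ.liftOfRightInverse_comp_apply _ (rightInverse_surjInv L.surj) ⟨_, hk⟩ y)⟩

variable {L} {l : X →* End L.K (B ⊕ ι → L.K)} (hl : ∀ y : BN.Fx L.T.σ, l (L.θ y) = Ad f y)
include hf hl

theorem ex_x (r : ι) : ∃ x, ∀ v, l x v = C.X r 1 *ᵥ v :=
  ⟨L.θ ⟨L.ρ.x r 1, (Am.R2.sx L r 1).trans (by rw [one_pow]; rfl)⟩, fun v => by
    rw [hl]; exact ad_x hf r 1 v⟩

variable (hs : C.SameLen) (h1 : ∀ θ, ∃ a, C.A θ a = 1) (hC : C.Conn)
include hs h1 hC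

theorem sb_key {A : Submodule L.K (B ⊕ ι → L.K)} (h : Sb l A) (n : A ≠ ⊤) {v : B ⊕ ι → L.K}
    (hv : v ∈ A) : (∀ s, v (inr s) = 0) ∧ ∀ j, ∑ i, v (inl i) * (C.car i j : L.K) = 0 :=
  key hs h1 hC (fun r v hv => (ex_x hf hl r).elim fun x e => e v ▸ h x v hv) n hv

theorem fx_cx [Finite X] (θ : ι) : (∀ v ∈ Al.Fx l, (∀ s, v (inr s) = 0) ∧
    ∀ j, ∑ i, v (inl i) * (C.car i j : L.K) = 0) ∧ Al.Cx l = ⊤ := by
  obtain ⟨a, ha⟩ := h1 θ
  obtain ⟨x, hxa⟩ := ex_x hf hl a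
  have k2 : l x (C.hv _ θ) - C.hv _ θ = -LieBasis.bv L.K (inr a) := by
    rw [hxa, LieBasis.X_hv, ha]; simp
  have k3 : (-LieBasis.bv L.K (inr a) : B ⊕ ι → L.K) (inr a) ≠ 0 := by simp [LieBasis.bv_apply]
  refine ⟨fun v => sb_key hf hl hs h1 hC (A := Al.Fx l) (fun g v hv => by rwa [Al.mem_Fx.1 hv])
    fun e => k3 (by rw [← k2, Al.mem_Fx.1 (e ▸ Submodule.mem_top), sub_self]; rfl),
    by_contra fun n => k3 ((sb_key hf hl hs h1 hC (fun g v hv => ?_) n (k2 ▸ sub_mem_Cx x _)).1 a)⟩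
  simpa using add_mem (sub_mem_Cx (r := l) g v) hv

end

theorem a1 (θ : Fin 126) : ∃ a, cE7.A θ a = 1 := by
  obtain ⟨w, hw, i, rfl⟩ := cE7.exists_W_simple θ
  have : ∀ i : Fin 7, ∃ j, cE7.car i j = -1 := by
    have : ∀ i j : Fin 7, cE7.car i j = _ := carE7
    simp only [this]; decide
  obtain ⟨j, e⟩ := this i
  exact ⟨w (cE7.neg (cE7.simple j)), by
    rw [RootSys.A_aut (cE7.W_le_Aut hw), cE7.A_neg_right, cE7.A_simple_simple, e]; rfl⟩

theorem cz {K : Type*} [Field K] {v : Fin 7 ⊕ Fin 126 → K}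
    (h : (∀ s, v (inr s) = 0) ∧ ∀ j, ∑ i, v (inl i) * (cE7.car i j : K) = 0) :
    2 * v (inl 6) = 0 ∧ (v (inl 6) = 0 → v = 0) := by
  have c : ∀ i j : Fin 7, cE7.car i j = _ := carE7
  have a0 := h.2 0
  have a1 := h.2 1
  have a2 := h.2 2
  have a3 := h.2 3
  have a4 := h.2 4
  have a5 := h.2 5
  have a6 := h.2 6
  simp only [Fin.sum_univ_seven, c] at a0 a1 a2 a3 a4 a5 a6
  norm_num [cmE7, -mul_eq_zero] at a0 a1 a2 a3 a4 a5 a6
  refine ⟨by linear_combination 2 * a0 + 3 * a1 + 4 * a2 + 6 * a3 + 5 * a4 + 4 * a5 + 3 * a6,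
    fun b6 => ?_⟩
  have b5 : v (inl 5) = 0 := by linear_combination 2 * b6 - a6
  have b4 : v (inl 4) = 0 := by linear_combination 2 * b5 - b6 - a5
  have b3 : v (inl 3) = 0 := by linear_combination 2 * b4 - b5 - a4
  have b0 : v (inl 0) = 0 := by linear_combination -a2 - 2 * a3 - a1 + 2 * b3 - 2 * b4
  have b2 : v (inl 2) = 0 := by linear_combination 2 * b0 - a0
  have b1 : v (inl 1) = 0 := by linear_combination -a3 - b2 + 2 * b3 - b4
  funext a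
  rcases a with i | r
  · fin_cases i
    exacts [b0, b1, b2, b3, b4, b5, b6]
  · exact h.1 r

variable {p q z : ℕ} [Fact p.Prime] {X : Type*} [Group X] [Finite X] {L : LS cE7 1 p q z X}
  {f : L.G →* GL (Fin 7 ⊕ Fin 126) L.K} (hf : L.ρ.IsAdHom f)
  {l : X →* End L.K (Fin 7 ⊕ Fin 126 → L.K)} (hl : ∀ y : BN.Fx L.T.σ, l (L.θ y) = Ad f y)
include hf hl

theorem cx7 : Al.Cx l = ⊤ := (fx_cx hf hl sameLenE7 a1 goodE7.conn 0).2

theorem fx7 : finrank L.K (Al.Fx l) ≤ 1 :=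
  (LinearMap.finrank_le_finrank_of_injective (f := (LinearMap.proj (inl 6) :
    (Fin 7 ⊕ Fin 126 → L.K) →ₗ[L.K] L.K) ∘ₗ (Al.Fx l).subtype) ((injective_iff_map_eq_zero _).2
      fun v e => Subtype.ext ((cz ((fx_cx hf hl sameLenE7 a1 goodE7.conn 0).1 v v.2)).2 e))).trans
    (finrank_self _).le

theorem fx7' (h2 : (2 : L.K) ≠ 0) : Al.Fx l = ⊥ := eq_bot_iff.2 fun v hv =>
  have k := cz ((fx_cx hf hl sameLenE7 a1 goodE7.conn 0).1 v hv)
  k.2 ((mul_eq_zero.1 k.1).resolve_left h2)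

omit [Finite X] in
theorem irr7 (h2 : (2 : L.K) ≠ 0) : Irr l := fun _ h => or_iff_not_imp_right.2 fun n =>
  eq_bot_iff.2 fun _ hv =>
    have k := cz (sb_key hf hl sameLenE7 a1 goodE7.conn h n hv)
    k.2 ((mul_eq_zero.1 k.1).resolve_left h2)

omit [Finite X] in
/-- A proper submodule has dimension at most one (any characteristic). -/
theorem sb7 {A : Submodule L.K (Fin 7 ⊕ Fin 126 → L.K)} (h : Sb l A) (n : A ≠ ⊤) :
    finrank L.K A ≤ 1 :=
  (LinearMap.finrank_le_finrank_of_injective (f := (LinearMap.proj (inl 6) :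
    (Fin 7 ⊕ Fin 126 → L.K) →ₗ[L.K] L.K) ∘ₗ A.subtype) ((injective_iff_map_eq_zero _).2
      fun v e => Subtype.ext ((cz (sb_key hf hl sameLenE7 a1 goodE7.conn h n v.2)).2 e))).trans
    (finrank_self _).le

end CF.Ao.R2
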