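import Cfsg.Agent.Am.TK

/-! The fixed points of a Frobenius map on a stable subtorus, inside the universal group. -/

set_option autoImplicit false

namespace CF.Ao.TK

open Module Function Cfsg.Lie CF.Chev CF.BN CF.ExA CF.Am Matrix

theorem det_two (M : Matrix (Fin 2) (Fin 2) ℤ) (x : ℤ) :
    (x • M - 1).det = x ^ 2 * M.det - x * M.trace + 1 := by
  simp only [det_fin_two, trace_fin_two, Matrix.sub_apply, Matrix.smul_apply, smul_eq_mul, one_apply]
  simp
  ring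

theorem tr_le {M : Matrix (Fin 2) (Fin 2) ℤ} {d : ℕ} (hd : 0 < d) (h : M ^ d = 1) (h1 : M.det = 1) :
    M.trace ≤ 2 := by_contra fun k => by
  obtain ⟨t, ht⟩ := Int.eq_ofNat_of_zero_le (show 0 ≤ M.trace by omega)
  have := G1.le_det hd h t
  rw [det_two, h1, ht, Fintype.card_fin, show (t : ℤ) ^ 2 * 1 - t * t + 1 = 1 by ring] at this
  have := (Nat.pow_le_pow_left (show 2 ≤ t - 1 by omega) 2).trans this
  simp at this

theorem rank_two {M : Matrix (Fin 2) (Fin 2) ℤ} {d : ℕ} (hd : 0 < d) (h : M ^ d = 1) :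
    (M.det = -1 ∧ M.trace = 0) ∨ (M.det = 1 ∧ -2 ≤ M.trace ∧ M.trace ≤ 2) := by
  rcases Int.isUnit_iff.1 (IsUnit.of_pow_eq_one (a := M.det) (n := d) (by rw [← det_pow, h, det_one])
    hd.ne') with u | u
  · have := tr_le (M := -M) (d := 2 * d) (by omega) (by rw [pow_mul, neg_sq, ← pow_mul, pow_mul', h, one_pow])
      (by simp [det_neg, u])
    rw [trace_neg] at this
    exact .inr ⟨u, by omega, tr_le hd h u⟩
  · have := tr_le (M := M * M) hd (by rw [← sq, ← pow_mul, pow_mul', h, one_pow]) (by simp [u])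
    have e : (M * M).trace = M.trace ^ 2 - 2 * M.det := by
      simp [det_fin_two, trace_fin_two, mul_apply]
      ring
    exact .inl ⟨u, by nlinarith⟩

/-- The fixed points of a Frobenius map on a torus of rank `n`. -/
structure Tn {S : Type*} [Group S] (q n : ℕ) (T : Subgroup S) : Prop where
  le : (q - 1) ^ n ≤ Nat.card T
  co : (Nat.card T).Coprime q
  cm : ∀ a ∈ T, ∀ b ∈ T, Commute a b
  ex : ∀ e, 0 < e → (∀ s ∈ T, s ^ e = 1) → Nat.card T ≤ e ^ n
  r1 : n = 1 → IsCyclic T ∧ (Nat.card T = q - 1 ∨ Nat.card T = q + 1)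
  r2 : n = 2 → Nat.card T + 1 = q ^ 2 ∨
    ∃ t : ℤ, -2 ≤ t ∧ t ≤ 2 ∧ (Nat.card T : ℤ) = q ^ 2 + t * q + 1

theorem Tn.ne_five {S : Type*} [Group S] {n : ℕ} {T : Subgroup S} (h : Tn 3 n T) (hn : 2 ≤ n) :
    Nat.card T ≠ 5 := fun e => by
  rcases hn.eq_or_lt with rfl | k
  · rcases h.r2 rfl with k | ⟨t, -, -, k⟩ <;> rw [e] at k <;> omega
  · have := (Nat.pow_le_pow_right (show 0 < 3 - 1 by decide) k).trans h.le
    omega

theorem Tn.le_exp {S : Type*} [Group S] {q n : ℕ} {T : Subgroup S} (h : Tn q n T) (hn : 0 < n) {e : ℕ}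
    (he : 0 < e) (k : ∀ s ∈ T, s ^ e = 1) : q ≤ e + 1 := by
  have := (Nat.pow_le_pow_iff_left hn.ne').1 (h.le.trans (h.ex e he k))
  omega

variable {B ι : Type} [Fintype B] [DecidableEq B] [Fintype ι] [DecidableEq ι] {C : ChevBasis B ι}
  {π : Equiv.Perm B} {p q z : ℕ} [Fact p.Prime] {X : Type*} [Group X] {L : LS C π p q z X}

/-- Independent roots bound the rank of the central torus. -/
theorem rk_le {R : Set ι} {m : ℕ} (r : Fin m → ι) (hr : ∀ j, r j ∈ R) (D : Fin m → B → ℤ) {a : ℤ}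
    (ha : a ≠ 0) (hD : ∀ i j, pr C (D i) (C.vec (r j)) = if i = j then a else 0) :
    finrank ℤ (G2.fR C R).ker + m ≤ Fintype.card B := by
  let b := Module.finBasis ℤ (G2.fR C R).ker
  have h1 : LinearIndependent ℤ (Sum.elim (fun i => (b i : B → ℤ)) D) := by
    refine Fintype.linearIndependent_iff.2 fun g hg => ?_
    rw [Fintype.sum_sum_type] at hg
    simp only [Sum.elim_inl, Sum.elim_inr] at hg
    let F : Fin m → (B → ℤ) →ₗ[ℤ] ℤ := fun j =>
      { toFun y := pr C y (C.vec (r j)), map_add' _ _ := pr_add .., map_smul' _ _ := pr_smul .. }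
    have h2 : ∀ j, g (.inr j) = 0 := fun j => by
      have := congrArg (F j) hg
      simp only [map_add, map_sum, map_smul, map_zero] at this
      rw [Finset.sum_eq_zero fun i _ => by
        rw [show F j (b i) = 0 from G2.mem_fR.1 (b i).2 _ (hr j), smul_zero], zero_add,
        Finset.sum_eq_single j (fun i _ k => by
          rw [show F j (D i) = 0 from (hD i j).trans (if_neg k), smul_zero]) (by simp),
        show F j (D j) = a from (hD j j).trans (if_pos rfl)] at this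
      simpa [ha] using this
    simp only [h2, zero_smul, Finset.sum_const_zero, add_zero] at hg
    have h3 := Fintype.linearIndependent_iff.1 b.linearIndependent (fun i => g (.inl i))
      (Subtype.ext (by simpa using hg))
    rintro (i | j)
    exacts [h3 i, h2 j]
  simpa using h1.fintype_card_le_finrank

/-- The fixed points on the largest subtorus inside `Γ`. -/
theorem gen (hπ : G1.Gr C π) {I : Type*} {g : L.G} {c : I → B → L.Kˣ}
    (hQ : ∀ i, L.T.σ (g * L.h.r3.tor (c i) * g⁻¹) = g * L.h.r3.tor (c i) * g⁻¹) {Γ : Subgroup L.G}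
    (hΓ : ∀ a ∈ Γ, L.T.σ a ∈ Γ) {k : ℕ} {y : Fin k → B → ℤ} (hy : LinearIndependent ℤ y)
    (h1 : ∀ j r, (∀ i, rv C (c i) r = 1) → pr C (y j) (C.vec r) = 0)
    (h2 : ∀ j (t : L.Kˣ), g * L.h.r3.tor (fun a => t ^ y j a) * g⁻¹ ∈ Γ) :
    ∃ (n d : ℕ) (M : Matrix (Fin n) (Fin n) ℤ) (ψ : (mp (A := L.Kˣ) ((q : ℤ) • M - 1)).ker →* BN.Fx L.T.σ),
      k ≤ n ∧ n ≤ finrank ℤ (G2.fR C {r | ∀ i, rv C (c i) r = 1}).ker ∧ 0 < d ∧ M ^ d = 1 ∧ Injective ψ ∧
      Nat.card (mp (A := L.Kˣ) ((q : ℤ) • M - 1)).ker = ((q : ℤ) • M - 1).det.natAbs ∧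
      ∀ s, (ψ s).1 ∈ Γ ∧ ∃ e, (∀ r, (∀ i, rv C (c i) r = 1) → rv C e r = 1) ∧
        (ψ s).1 = g * L.h.r3.tor e * g⁻¹ := by
  obtain ⟨τ, hτ, h0⟩ := hπ
  obtain ⟨w, hw, h3, h4⟩ := G2.exists_v L hτ h0 (T := Set.range c) (by rintro _ ⟨i, rfl⟩; exact hQ i)
  simp only [Set.forall_mem_range] at h3 h4
  have hv := mul_mem (C.W_le_Aut hw) hτ
  generalize w * τ = v at h3 h4 hv
  let χ : (B → L.Kˣ) →* L.G := (MulAut.conj g).toMonoidHom.comp L.h.r3.tor
  have hχ : ∀ e, χ e = g * L.h.r3.tor e * g⁻¹ := fun _ => rfl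
  let P : Submodule ℤ (B → ℤ) :=
    { carrier := {y | (∀ r, (∀ i, rv C (c i) r = 1) → pr C y (C.vec r) = 0) ∧
        ∀ t : L.Kˣ, (fun a => t ^ y a) ∈ Γ.comap χ}
      add_mem' := fun a b => ⟨fun r hr => by rw [pr_add, a.1 r hr, b.1 r hr, add_zero], fun t => by
        simp only [Pi.add_apply, _root_.zpow_add]; exact mul_mem (a.2 t) (b.2 t)⟩
      zero_mem' := ⟨fun r _ => by simp [pr_apply], fun t => by
        simp only [Pi.zero_apply, zpow_zero]; exact one_mem _⟩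
      smul_mem' := fun m _ a => ⟨fun r hr => by rw [pr_smul, a.1 r hr, mul_zero], fun t => by
        simpa only [Pi.smul_apply, smul_eq_mul, _root_.zpow_mul] using a.2 (t ^ m)⟩ }
  have k1 : ∀ {y}, y ∈ P → ∀ t : L.Kˣ, ∀ r, (∀ i, rv C (c i) r = 1) → rv C (fun a => t ^ y a) r = 1 :=
    fun hy t r hr => by
      have := hy.1 r hr
      rw [pr_vec] at this
      simp only [rv_eq, ← _root_.zpow_mul, ← zpow_sum', this, zpow_zero]
  have : IsTorsionFree ℤ ((B → ℤ) ⧸ P) := .of_smul_eq_zero fun m x e => or_iff_not_imp_left.2 fun hm => by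
    obtain ⟨x, rfl⟩ := P.mkQ_surjective x
    replace e : (m.natAbs : ℤ) • x ∈ P := by
      have : m • x ∈ P := (Submodule.Quotient.mk_eq_zero _).1 e
      rcases Int.natAbs_eq m with k | k
      exacts [k ▸ this, by simpa using P.neg_mem (k ▸ this :)]
    refine (Submodule.Quotient.mk_eq_zero _).2 ⟨fun r hr => ?_, fun t => ?_⟩
    · have := e.1 r hr
      rw [pr_smul] at this
      simpa [hm] using this
    · obtain ⟨s, rfl⟩ := Am.TK.root t (Int.natAbs_pos.2 hm)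
      simpa only [Pi.smul_apply, smul_eq_mul, _root_.zpow_mul, zpow_natCast] using e.2 s
  let f := (Module.finBasis ℤ ((B → ℤ) ⧸ P)).equivFun.toLinearMap ∘ₗ P.mkQ
  have hf : f.ker = P := by simp [f]
  have q0 : 0 < q := by obtain ⟨M, -, rfl⟩ := L.pow; exact pow_pos (Fact.out : p.Prime).pos _
  obtain ⟨Λ, Δ, M, h5, h6, h7⟩ := G1.exists_sub f (A := Mw C v) fun y hy => by
    rw [hf] at hy ⊢
    refine ⟨fun r hr => ?_, fun t => ?_⟩
    · obtain ⟨r, rfl⟩ := v.surjective r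
      rw [pr_Mw hv, hy.1 r fun i => ?_]
      rw [← G1.rv_pow, ← rv_Mw hv, h3 i, hr i]
    · obtain ⟨s, rfl⟩ := Am.TK.root t q0
      have := hΓ _ (hy.2 s)
      rw [hχ, h4 _ (k1 hy s)] at this
      refine Subgroup.mem_comap.2 (hχ _ ▸ (congrArg (fun e => g * L.h.r3.tor e * g⁻¹ ∈ Γ) (funext fun a => ?_)).mp this)
      simp only [mp_apply, Pi.pow_apply, ← zpow_natCast, ← _root_.zpow_mul, ← zpow_sum', mulVec,
        dotProduct, Finset.mul_sum]
      exact congrArg _ (Finset.sum_congr rfl fun _ _ => by ring)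
  have hk : k ≤ finrank ℤ f.ker := by
    simpa using (LinearIndependent.of_comp f.ker.subtype
      (v := fun j => (⟨y j, hf.ge ⟨h1 j, h2 j⟩⟩ : f.ker)) hy).fintype_card_le_finrank
  have hk' : finrank ℤ f.ker ≤ finrank ℤ (G2.fR C {r | ∀ i, rv C (c i) r = 1}).ker :=
    Submodule.finrank_mono fun y hy => G2.mem_fR.2 (hf.le hy).1
  simp only [hf] at h7
  generalize finrank ℤ f.ker = n at Λ Δ M h5 h6 h7 hk hk'
  have h8 : ∀ m, Mw C v ^ m * Λ = Λ * M ^ m := fun m => by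
    induction' m with m ih
    · simp
    · rw [pow_succ, Matrix.mul_assoc, h6, ← Matrix.mul_assoc, ih, Matrix.mul_assoc, pow_succ]
  have h9 : M ^ orderOf v = 1 := by
    rw [← Matrix.one_mul (M ^ _), ← h5, Matrix.mul_assoc, ← h8, ← Mw_pow hv, pow_orderOf_eq_one,
      Mw_one, Matrix.one_mul]
  have e1 : ∀ t : _ → L.Kˣ, mp Λ t = ∏ j, fun a => t j ^ Λᵀ j a := fun t => funext fun a => by
    simp [mp_apply]
  have e2 : ∀ t : _ → L.Kˣ, ∀ r, (∀ i, rv C (c i) r = 1) → rv C (mp Λ t) r = 1 := fun t r hr => by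
    rw [rv_eq]
    refine (prod_prod_zpow t (fun j k => Λ j k) _).trans (Finset.prod_eq_one fun j _ => ?_)
    have := (h7 j).1 r hr
    rw [pr_vec] at this
    simp only [transpose_apply] at this
    simp [this]
  have e3 := card_ker_mp (K := L.K) (E := (q : ℤ) • M - 1) (by
    have := (Int.castRingHom L.K).map_det ((q : ℤ) • M - 1)
    rw [show RingHom.mapMatrix _ _ = -1 by
      ext i j
      change (((q : ℤ) * M i j - (1 : Matrix _ _ ℤ) i j : ℤ) : L.K) = _
      by_cases h : i = j <;> simp [L.cast_q, h, one_apply]] at this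
    exact this.trans_ne (by simp [det_neg]))
  have e4 : ∀ t : (mp ((q : ℤ) • M - 1)).ker, (χ.comp (mp Λ)).comp (Subgroup.subtype _) t ∈ BN.Fx L.T.σ :=
    fun ⟨t, ht⟩ => by
    have : mp ((q : ℤ) • M - 1) t = 1 := ht
    rw [sub_eq_add_neg, mp_add, ← neg_one_smul ℤ (1 : Matrix _ _ ℤ), mp_smul, mp_smul, mp_one,
      _root_.zpow_neg_one, mul_inv_eq_one, zpow_natCast] at this
    change L.T.σ (χ (mp Λ t)) = χ (mp Λ t)
    rw [hχ, h4 _ (e2 t), map_pow, mp_mp, h6, ← mp_mp, ← map_pow, this]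
  refine ⟨n, _, M, MonoidHom.codRestrict _ _ e4, hk, hk', orderOf_pos v, h9, fun a b e => ?_, e3, fun t =>
    ⟨show mp Λ t.1 ∈ Γ.comap χ from e1 _ ▸ prod_mem fun j _ => (h7 j).2 _, _, e2 t, rfl⟩⟩
  have : χ (mp Λ a) = χ (mp Λ b) := congrArg Subtype.val e
  rw [hχ, hχ, mul_left_inj, mul_right_inj] at this
  have := congrArg (mp Δ) (L.h.inj this)
  exact Subtype.ext (by simpa [mp_mp, h5, mp_one] using this)


/-- **TK.** The torus lives in the finite universal group. -/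
theorem exists_tn (hπ : G1.Gr C π) {I : Type*} {g : L.G} {c : I → B → L.Kˣ}
    (hQ : ∀ i, L.T.σ (g * L.h.r3.tor (c i) * g⁻¹) = g * L.h.r3.tor (c i) * g⁻¹) {Γ : Subgroup L.G}
    (hΓ : ∀ a ∈ Γ, L.T.σ a ∈ Γ) {k : ℕ} {y : Fin k → B → ℤ} (hy : LinearIndependent ℤ y)
    (h1 : ∀ j r, (∀ i, rv C (c i) r = 1) → pr C (y j) (C.vec r) = 0)
    (h2 : ∀ j (t : L.Kˣ), g * L.h.r3.tor (fun a => t ^ y j a) * g⁻¹ ∈ Γ) :
    ∃ (n : ℕ) (T : Subgroup (BN.Fx L.T.σ)), k ≤ n ∧
      n ≤ finrank ℤ (G2.fR C {r | ∀ i, rv C (c i) r = 1}).ker ∧ Tn q n T ∧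
      ∀ s ∈ T, s.1 ∈ Γ ∧ ∃ e, (∀ r, (∀ i, rv C (c i) r = 1) → rv C e r = 1) ∧
        s.1 = g * L.h.r3.tor e * g⁻¹ := by
  obtain ⟨n, d, M, ψ, hk, hk', hd, hM, inj, cd, h⟩ := gen hπ hQ hΓ hy h1 h2
  have le := G1.le_det hd hM q
  have q2 : 2 ≤ q := by
    obtain ⟨M, hM, e⟩ := L.pow
    exact e ▸ Nat.one_lt_pow hM.ne' (Fact.out : p.Prime).one_lt
  have e1 : Nat.card ψ.range = ((q : ℤ) • M - 1).det.natAbs :=
    (Nat.card_congr (MonoidHom.ofInjective inj).toEquiv).symm.trans cd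
  rw [Fintype.card_fin, ← e1] at le
  refine ⟨n, ψ.range, hk, hk', ⟨le, ?_, ?_, fun m hm e => ?_, ?_, ?_⟩, ?_⟩
  · have := (Int.castRingHom (ZMod q)).map_det ((q : ℤ) • M - 1)
    rw [show RingHom.mapMatrix _ _ = -1 by
      ext i j
      change (((q : ℤ) * M i j - (1 : Matrix _ _ ℤ) i j : ℤ) : ZMod q) = _
      by_cases h : i = j <;> simp [h, one_apply]] at this
    rw [e1, ← Int.natAbs_natCast q, ← Int.isCoprime_iff_nat_coprime, isCoprime_comm,
      ← ZMod.coe_int_isUnit_iff_isCoprime]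
    exact (congrArg IsUnit this).mpr (by simpa [det_neg] using isUnit_one.neg.pow n)
  · rintro _ ⟨a, rfl⟩ _ ⟨b, rfl⟩
    exact (Commute.all a b).map ψ
  · have : NeZero m := ⟨hm.ne'⟩
    have h4 := Nat.card_le_card_of_injective (β := Fin n → rootsOfUnity m L.K)
      (fun s : (mp (A := L.Kˣ) ((q : ℤ) • M - 1)).ker => fun i => ⟨s.1 i, congrFun (congrArg Subtype.val
        (inj (a₁ := s ^ m) (a₂ := 1) (by rw [map_pow, map_one, e _ ⟨s, rfl⟩]))) i⟩)
      fun a b e => Subtype.ext (funext fun i => congrArg Subtype.val (congrFun e i))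
    rw [Nat.card_fun, Nat.card_eq_fintype_card (α := Fin _), Fintype.card_fin, cd, ← e1] at h4
    exact h4.trans (Nat.pow_le_pow_left (card_rootsOfUnity L.K _) _)
  · rintro rfl
    have e2 : ((q : ℤ) • M - 1).det.natAbs = q - 1 ∨ ((q : ℤ) • M - 1).det.natAbs = q + 1 := by
      have := Int.isUnit_iff.1 (IsUnit.of_pow_eq_one (a := M.det) (n := d)
        (by rw [← det_pow, hM, det_one]) hd.ne')
      simp only [det_fin_one, Matrix.sub_apply, Matrix.smul_apply, one_apply_eq, smul_eq_mul] at this ⊢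
      rcases this with u | u <;> rw [u] <;> omega
    have : Finite (mp (A := L.Kˣ) ((q : ℤ) • M - 1)).ker := Nat.finite_of_card_ne_zero (by omega)
    have : IsCyclic (mp (A := L.Kˣ) ((q : ℤ) • M - 1)).ker :=
      isCyclic_of_injective_ringHom (R := L.K) ((Units.coeHom _).comp ((Pi.evalMonoidHom (fun _ : Fin 1 => L.Kˣ) 0).comp
        (Subgroup.subtype _))) fun a b e => Subtype.ext (funext fun i => by
          rw [Subsingleton.elim i 0]; exact Units.ext e)
    exact ⟨isCyclic_of_surjective _ ψ.rangeRestrict_surjective, e1 ▸ e2⟩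
  · rintro rfl
    rw [e1, det_two]
    rcases rank_two hd hM with ⟨u, v⟩ | ⟨u, v, w⟩
    · refine .inl ?_
      zify
      rw [u, v, abs_of_nonpos (by nlinarith)]
      ring
    · refine .inr ⟨-M.trace, by omega, by omega, ?_⟩
      rw [u, Int.natCast_natAbs, abs_of_nonneg (by nlinarith)]
      ring
  · rintro _ ⟨s, rfl⟩
    exact h s

end CF.Ao.TK
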